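import Mathlib
set_option linter.all false

-- part: SporadicA/Biplane
section
/-!
Uniqueness of the symmetric `2-(11,5,2)` design (biplane).
-/

set_option autoImplicit false

namespace Cfsg.Agent.SporadicA.Biplane

/-- A fixed incidence matrix of the biplane; rows are blocks, columns are points. -/
def M1 : Fin 11 → Fin 11 → Bool :=
  ![![true, true, true, true, true, false, false, false, false, false, false],
    ![true, true, false, false, false, true, true, true, false, false, false],
    ![true, false, true, false, false, true, false, false, true, true, false],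
    ![true, false, false, true, false, false, true, false, true, false, true],
    ![true, false, false, false, true, false, false, true, false, true, true],
    ![false, true, true, false, false, false, true, false, false, true, true],
    ![false, true, false, true, false, false, false, true, true, true, false],
    ![false, true, false, false, true, true, false, false, true, false, true],
    ![false, false, true, true, false, true, false, true, false, false, true],
    ![false, false, true, false, true, false, true, true, true, false, false],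
    ![false, false, false, true, true, true, true, false, false, true, false]]

/-- The permutation exchanging the two solutions. -/
def sg : Equiv.Perm (Fin 11) := Equiv.swap 3 4 * Equiv.swap 6 7 * Equiv.swap 8 9

/-- The mirror image of `M1`. -/
def M2 : Fin 11 → Fin 11 → Bool := fun j i => M1 (sg j) (sg i)

/-- Number of common `true` entries. -/
def cnt (r s : Fin 11 → Bool) : ℕ :=
  (r 0 && s 0).toNat + (r 1 && s 1).toNat + (r 2 && s 2).toNat + (r 3 && s 3).toNat +
  (r 4 && s 4).toNat + (r 5 && s 5).toNat + (r 6 && s 6).toNat + (r 7 && s 7).toNat +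
  (r 8 && s 8).toNat + (r 9 && s 9).toNat + (r 10 && s 10).toNat

theorem row_dec : ∀ j : Fin 11, ∀ b5 b6 b7 b8 b9 b10 : Bool, 5 ≤ j.val →
    cnt ![M1 j 0, M1 j 1, M1 j 2, M1 j 3, M1 j 4, b5, b6, b7, b8, b9, b10] (fun _ => true) = 5 →
    (∀ k : Fin 11, k.val < 5 →
      cnt ![M1 j 0, M1 j 1, M1 j 2, M1 j 3, M1 j 4, b5, b6, b7, b8, b9, b10] (M1 k) = 2) →
    (∀ i, (![M1 j 0, M1 j 1, M1 j 2, M1 j 3, M1 j 4, b5, b6, b7, b8, b9, b10] : Fin 11 → Bool) i
      = M1 j i) ∨
    (∀ i, (![M1 j 0, M1 j 1, M1 j 2, M1 j 3, M1 j 4, b5, b6, b7, b8, b9, b10] : Fin 11 → Bool) i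
      = M2 j i) := by
  decide +kernel

theorem row_cases (j : Fin 11) (hj : 5 ≤ j.val) (r : Fin 11 → Bool)
    (hr : ∀ i : Fin 11, i.val < 5 → r i = M1 j i)
    (h5 : cnt r (fun _ => true) = 5) (hk : ∀ k : Fin 11, k.val < 5 → cnt r (M1 k) = 2) :
    r = M1 j ∨ r = M2 j := by
  have hr' : r = ![M1 j 0, M1 j 1, M1 j 2, M1 j 3, M1 j 4, r 5, r 6, r 7, r 8, r 9, r 10] := by
    funext i
    fin_cases i
    · exact hr 0 (by decide)
    · exact hr 1 (by decide)
    · exact hr 2 (by decide)
    · exact hr 3 (by decide)
    · exact hr 4 (by decide)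
    all_goals rfl
  rw [hr'] at h5 hk
  rcases row_dec j (r 5) (r 6) (r 7) (r 8) (r 9) (r 10) hj h5 hk with h | h
  · left; rw [hr']; funext i; exact h i
  · right; rw [hr']; funext i; exact h i

theorem M12_ne : ∀ j : Fin 11, 6 ≤ j.val → cnt (M1 5) (M2 j) ≠ 2 ∧ cnt (M2 5) (M1 j) ≠ 2 := by
  decide +kernel

theorem M12_eq : ∀ j i : Fin 11, (j.val < 5 ∧ M2 j i = M1 j i) ∨ 5 ≤ j.val := by
  decide +kernel

theorem cnt_eq_card (r s : Fin 11 → Bool) :
    cnt r s = (Finset.univ.filter fun i => (r i = true ∧ s i = true)).card := by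
  rw [Finset.card_filter]
  have h : ∀ i, (if (r i = true ∧ s i = true) then 1 else 0) = (r i && s i).toNat := by
    intro i
    cases r i <;> cases s i <;> rfl
  simp only [h]
  simp only [cnt, Fin.sum_univ_succ, Fin.sum_univ_zero]
  simp only [add_assoc]
  rfl

/-- Uniqueness of the biplane: any `11` five-subsets of an `11`-set, pairwise meeting in two
points and such that any two points lie in exactly two of them, can be labelled as in `M1`. -/
theorem exists_label {E F : Type*} [Fintype E] [DecidableEq E] [Fintype F] [DecidableEq F]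
    (hE : Fintype.card E = 11) (hF : Fintype.card F = 11) (A : F → Finset E)
    (h1 : ∀ j, (A j).card = 5) (h2 : ∀ j k, j ≠ k → (A j ∩ A k).card = 2)
    (h3 : ∀ i i', i ≠ i' → (Finset.univ.filter fun j => i ∈ A j ∧ i' ∈ A j).card = 2) :
    ∃ (f : Fin 11 ≃ F) (g : Fin 11 ≃ E), ∀ j i, g i ∈ A (f j) ↔ M1 j i = true := by
  classical
  obtain ⟨x0⟩ : Nonempty F := Fintype.card_pos_iff.mp (by omega)
  -- label the points of the block `x0`
  have ha : ∃ a : Fin 5 → E, Function.Injective a ∧ ∀ p, p ∈ A x0 ↔ ∃ m, a m = p := by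
    have e : A x0 ≃ Fin 5 := (A x0).equivFinOfCardEq (h1 x0)
    refine ⟨fun m => (e.symm m : E), fun m n h => e.symm.injective (Subtype.ext h),
      fun p => ⟨fun hp => ⟨e ⟨p, hp⟩, by simp⟩, ?_⟩⟩
    rintro ⟨m, rfl⟩
    exact (e.symm m).2
  obtain ⟨a, ainj, hA0⟩ := ha
  -- the blocks through two points of `x0`
  have hy : ∀ k l : Fin 5, ∃ y : F, k ≠ l → y ≠ x0 ∧ ∀ m, a m ∈ A y ↔ m = k ∨ m = l := by
    intro k l
    by_cases hkl : k = l
    · exact ⟨x0, fun h => absurd hkl h⟩
    have hc := h3 (a k) (a l) (ainj.ne hkl)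
    obtain ⟨y, hy, hyx⟩ := Finset.exists_mem_ne (by omega : 1 < (Finset.univ.filter
      fun j => a k ∈ A j ∧ a l ∈ A j).card) x0
    rw [Finset.mem_filter] at hy
    refine ⟨y, fun _ => ⟨hyx, ?_⟩⟩
    have hI := h2 y x0 hyx
    have hk0 : a k ∈ A x0 := (hA0 _).2 ⟨k, rfl⟩
    have hl0 : a l ∈ A x0 := (hA0 _).2 ⟨l, rfl⟩
    have hsub : ({a k, a l} : Finset E) ⊆ A y ∩ A x0 := by
      intro z hz
      rw [Finset.mem_insert, Finset.mem_singleton] at hz
      rcases hz with rfl | rfl
      · exact Finset.mem_inter.2 ⟨hy.2.1, hk0⟩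
      · exact Finset.mem_inter.2 ⟨hy.2.2, hl0⟩
    have heq : ({a k, a l} : Finset E) = A y ∩ A x0 :=
      Finset.eq_of_subset_of_card_le hsub (by rw [hI, Finset.card_pair (ainj.ne hkl)])
    intro m
    constructor
    · intro hm
      have hm' : a m ∈ A y ∩ A x0 := Finset.mem_inter.2 ⟨hm, (hA0 _).2 ⟨m, rfl⟩⟩
      rw [← heq, Finset.mem_insert, Finset.mem_singleton] at hm'
      rcases hm' with h | h
      · exact Or.inl (ainj h)
      · exact Or.inr (ainj h)
    · rintro (rfl | rfl)
      · exact hy.2.1
      · exact hy.2.2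
  choose y hy using hy
  -- the remaining points
  have hp : ∀ k l : Fin 5, ∃ p : E, k ≠ 0 → l ≠ 0 → k ≠ l →
      p ∉ A x0 ∧ ∀ m, m ≠ 0 → (p ∈ A (y 0 m) ↔ m = k ∨ m = l) := by
    intro k l
    by_cases hk : k = 0
    · exact ⟨a 0, fun h => absurd hk h⟩
    by_cases hl : l = 0
    · exact ⟨a 0, fun _ h => absurd hl h⟩
    by_cases hkl : k = l
    · exact ⟨a 0, fun _ _ h => absurd hkl h⟩
    have hyne : ∀ m n : Fin 5, m ≠ 0 → n ≠ 0 → m ≠ n → y 0 m ≠ y 0 n := by
      intro m n hm hn hmn he
      have h1 := ((hy 0 m (Ne.symm hm)).2 m).2 (Or.inr rfl)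
      rw [he] at h1
      rcases ((hy 0 n (Ne.symm hn)).2 m).1 h1 with h | h
      · exact hm h
      · exact hmn h
    have hI := h2 (y 0 k) (y 0 l) (hyne k l hk hl hkl)
    obtain ⟨p, hp, hpa⟩ := Finset.exists_mem_ne (by omega : 1 < (A (y 0 k) ∩ A (y 0 l)).card) (a 0)
    rw [Finset.mem_inter] at hp
    refine ⟨p, fun _ _ _ => ⟨?_, ?_⟩⟩
    · intro hpx
      obtain ⟨m, rfl⟩ := (hA0 p).1 hpx
      rcases ((hy 0 k (Ne.symm hk)).2 m).1 hp.1 with h | h
      · exact hpa (by rw [h])
      · rcases ((hy 0 l (Ne.symm hl)).2 m).1 hp.2 with h' | h'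
        · exact hpa (by rw [h'])
        · exact hkl (h.symm.trans h')
    · intro m hm
      constructor
      · intro hmem
        by_contra hcon
        push Not at hcon
        have hc := h3 (a 0) p (Ne.symm hpa)
        have hsub : ({y 0 k, y 0 l, y 0 m} : Finset F) ⊆
            Finset.univ.filter fun j => a 0 ∈ A j ∧ p ∈ A j := by
          intro z hz
          simp only [Finset.mem_insert, Finset.mem_singleton] at hz
          rw [Finset.mem_filter]
          refine ⟨Finset.mem_univ _, ?_⟩
          rcases hz with rfl | rfl | rfl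
          · exact ⟨((hy 0 k (Ne.symm hk)).2 0).2 (Or.inl rfl), hp.1⟩
          · exact ⟨((hy 0 l (Ne.symm hl)).2 0).2 (Or.inl rfl), hp.2⟩
          · exact ⟨((hy 0 m (Ne.symm hm)).2 0).2 (Or.inl rfl), hmem⟩
        have h3c : ({y 0 k, y 0 l, y 0 m} : Finset F).card = 3 := by
          rw [Finset.card_eq_three]
          exact ⟨_, _, _, hyne k l hk hl hkl, hyne k m hk hm (Ne.symm hcon.1),
            hyne l m hl hm (Ne.symm hcon.2), rfl⟩
        have := Finset.card_le_card hsub
        omega
      · rintro (rfl | rfl)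
        · exact hp.1
        · exact hp.2
  choose p hp using hp
  -- the labellings
  let f0 : Fin 11 → F := ![x0, y 0 1, y 0 2, y 0 3, y 0 4, y 1 2, y 1 3, y 1 4, y 2 3, y 2 4, y 3 4]
  let g0 : Fin 11 → E := ![a 0, a 1, a 2, a 3, a 4, p 1 2, p 1 3, p 1 4, p 2 3, p 2 4, p 3 4]
  have hcolA : ∀ (j : Fin 11) (m : Fin 5), a m ∈ A (f0 j) ↔ M1 j (m.castLE (by decide)) = true := by
    intro j
    fin_cases j
    · intro m
      have h0 : ∀ m : Fin 5, M1 0 (m.castLE (by decide)) = true := by decide
      exact ⟨fun _ => h0 m, fun _ => (hA0 _).2 ⟨m, rfl⟩⟩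
    · intro m; exact ((hy 0 1 (by decide)).2 m).trans (by revert m; decide)
    · intro m; exact ((hy 0 2 (by decide)).2 m).trans (by revert m; decide)
    · intro m; exact ((hy 0 3 (by decide)).2 m).trans (by revert m; decide)
    · intro m; exact ((hy 0 4 (by decide)).2 m).trans (by revert m; decide)
    · intro m; exact ((hy 1 2 (by decide)).2 m).trans (by revert m; decide)
    · intro m; exact ((hy 1 3 (by decide)).2 m).trans (by revert m; decide)
    · intro m; exact ((hy 1 4 (by decide)).2 m).trans (by revert m; decide)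
    · intro m; exact ((hy 2 3 (by decide)).2 m).trans (by revert m; decide)
    · intro m; exact ((hy 2 4 (by decide)).2 m).trans (by revert m; decide)
    · intro m; exact ((hy 3 4 (by decide)).2 m).trans (by revert m; decide)
  have hcol : ∀ (j : Fin 11) (i : Fin 11), i.val < 5 → (g0 i ∈ A (f0 j) ↔ M1 j i = true) := by
    intro j i hi
    have h := hcolA j ⟨i.val, hi⟩
    have hg : g0 i = a ⟨i.val, hi⟩ := by
      fin_cases i
      · rfl
      · rfl
      · rfl
      · rfl
      · rfl
      all_goals (exact absurd hi (by decide))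
    rw [hg]
    exact h
  have hrow : ∀ (j : Fin 11) (i : Fin 11), j.val < 5 → (g0 i ∈ A (f0 j) ↔ M1 j i = true) := by
    intro j i hj
    by_cases hi : i.val < 5
    · exact hcol j i hi
    have key : ∀ k l : Fin 5, k ≠ 0 → l ≠ 0 → k ≠ l → ∀ m : Fin 5,
        (p k l ∈ A (f0 (m.castLE (by decide))) ↔ (m ≠ 0 ∧ (m = k ∨ m = l))) := by
      intro k l hk hl hkl m
      by_cases hm : m = 0
      · subst hm
        refine ⟨fun h => absurd h (hp k l hk hl hkl).1, fun h => absurd rfl h.1⟩
      · have hf : f0 (m.castLE (by decide)) = y 0 m := by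
          fin_cases m
          · exact absurd rfl hm
          all_goals rfl
        rw [hf, (hp k l hk hl hkl).2 m hm]
        tauto
    have hj' : j = (⟨j.val, hj⟩ : Fin 5).castLE (by decide) := rfl
    fin_cases i
    · exact absurd (by decide) hi
    · exact absurd (by decide) hi
    · exact absurd (by decide) hi
    · exact absurd (by decide) hi
    · exact absurd (by decide) hi
    all_goals rw [hj']
    · exact (key 1 2 (by decide) (by decide) (by decide) _).trans (by
        generalize (⟨j.val, hj⟩ : Fin 5) = m; revert m; decide)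
    · exact (key 1 3 (by decide) (by decide) (by decide) _).trans (by
        generalize (⟨j.val, hj⟩ : Fin 5) = m; revert m; decide)
    · exact (key 1 4 (by decide) (by decide) (by decide) _).trans (by
        generalize (⟨j.val, hj⟩ : Fin 5) = m; revert m; decide)
    · exact (key 2 3 (by decide) (by decide) (by decide) _).trans (by
        generalize (⟨j.val, hj⟩ : Fin 5) = m; revert m; decide)
    · exact (key 2 4 (by decide) (by decide) (by decide) _).trans (by
        generalize (⟨j.val, hj⟩ : Fin 5) = m; revert m; decide)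
    · exact (key 3 4 (by decide) (by decide) (by decide) _).trans (by
        generalize (⟨j.val, hj⟩ : Fin 5) = m; revert m; decide)
  have hf0 : Function.Injective f0 := by
    intro j j' h
    have : ∀ i : Fin 11, i.val < 5 → (M1 j i = M1 j' i) := by
      intro i hi
      have h1 := hcol j i hi
      have h2 := hcol j' i hi
      rw [h] at h1
      rw [Bool.eq_iff_iff]
      exact h1.symm.trans h2
    revert this
    clear * -
    revert j j'
    decide +kernel
  have hg0 : Function.Injective g0 := by
    intro i i' h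
    have : ∀ j : Fin 11, j.val < 5 → (M1 j i = M1 j i') := by
      intro j hj
      have h1 := hrow j i hj
      have h2 := hrow j i' hj
      rw [h] at h1
      rw [Bool.eq_iff_iff]
      exact h1.symm.trans h2
    revert this
    clear * -
    revert i i'
    decide +kernel
  have hfb : Function.Bijective f0 :=
    (Fintype.bijective_iff_injective_and_card f0).2 ⟨hf0, by rw [hF]; rfl⟩
  have hgb : Function.Bijective g0 :=
    (Fintype.bijective_iff_injective_and_card g0).2 ⟨hg0, by rw [hE]; rfl⟩
  let f : Fin 11 ≃ F := Equiv.ofBijective f0 hfb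
  let g : Fin 11 ≃ E := Equiv.ofBijective g0 hgb
  let T : Fin 11 → Fin 11 → Bool := fun j i => decide (g0 i ∈ A (f0 j))
  have hT : ∀ j i, T j i = true ↔ g0 i ∈ A (f0 j) := fun j i => by simp [T]
  have hTrow : ∀ j : Fin 11, j.val < 5 → T j = M1 j := by
    intro j hj
    funext i
    rw [Bool.eq_iff_iff, hT]
    exact hrow j i hj
  have hTcol : ∀ j i : Fin 11, i.val < 5 → T j i = M1 j i := by
    intro j i hi
    rw [Bool.eq_iff_iff, hT]
    exact hcol j i hi
  have hcard : ∀ s : Finset E, (Finset.univ.filter fun i => g0 i ∈ s).card = s.card := by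
    intro s
    have : s = (Finset.univ.filter fun i => g0 i ∈ s).map g.toEmbedding := by
      ext z
      simp only [Finset.mem_map, Finset.mem_filter, Finset.mem_univ, true_and,
        Equiv.coe_toEmbedding]
      constructor
      · intro hz
        refine ⟨g.symm z, ?_, g.apply_symm_apply z⟩
        have : g0 (g.symm z) = z := g.apply_symm_apply z
        rw [this]; exact hz
      · rintro ⟨i, hi, rfl⟩
        exact hi
    conv_rhs => rw [this]
    rw [Finset.card_map]
  have hcnt1 : ∀ j, cnt (T j) (fun _ => true) = 5 := by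
    intro j
    rw [cnt_eq_card, ← h1 (f0 j), ← hcard (A (f0 j))]
    congr 1
    ext i
    simp [hT]
  have hcnt2 : ∀ j k, j ≠ k → cnt (T j) (T k) = 2 := by
    intro j k hjk
    rw [cnt_eq_card, ← h2 (f0 j) (f0 k) (hf0.ne hjk), ← hcard (A (f0 j) ∩ A (f0 k))]
    congr 1
    ext i
    simp [hT]
  have hcase : ∀ j : Fin 11, 5 ≤ j.val → T j = M1 j ∨ T j = M2 j := by
    intro j hj
    refine row_cases j hj (T j) (hTcol j) (hcnt1 j) ?_
    intro k hk
    rw [← hTrow k hk]
    refine hcnt2 j k ?_
    rintro rfl
    omega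
  have hfin : (T = M1) ∨ (T = M2) := by
    rcases hcase 5 (by decide) with h | h
    · left
      funext j
      by_cases hj : j.val < 5
      · exact hTrow j hj
      · rcases hcase j (by omega) with h' | h'
        · exact h'
        · by_cases hj6 : 6 ≤ j.val
          · have h6 := hcnt2 5 j (by rintro rfl; exact absurd hj6 (by decide))
            rw [h, h'] at h6
            exact absurd h6 (M12_ne j hj6).1
          · have : j = 5 := by
              apply Fin.ext
              show j.val = 5
              omega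
            rw [this, h]
    · right
      funext j
      by_cases hj : j.val < 5
      · rw [hTrow j hj]
        funext i
        rcases M12_eq j i with h' | h'
        · exact h'.2.symm
        · omega
      · rcases hcase j (by omega) with h' | h'
        · by_cases hj6 : 6 ≤ j.val
          · have h6 := hcnt2 5 j (by rintro rfl; exact absurd hj6 (by decide))
            rw [h, h'] at h6
            exact absurd h6 (M12_ne j hj6).2
          · have : j = 5 := by
              apply Fin.ext
              show j.val = 5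
              omega
            rw [this, h]
        · exact h'
  rcases hfin with h | h
  · refine ⟨f, g, fun j i => ?_⟩
    rw [← h, hT]
    rfl
  · refine ⟨sg.trans f, sg.trans g, fun j i => ?_⟩
    have hh : M1 j i = M2 (sg j) (sg i) := by
      revert j i
      decide +kernel
    rw [hh, ← h, hT]
    rfl

end Cfsg.Agent.SporadicA.Biplane
end

-- part: SporadicA/CodeUnique
section
/-!
Uniqueness of the binary Golay code: any two self-orthogonal doubly even codes of length 24 and
dimension 12 without words of weight 4 are equivalent.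
-/

set_option autoImplicit false

namespace Cfsg.Agent.SporadicA.CodeUnique

variable {α : Type*} [Fintype α] [DecidableEq α]

/-- The standard symmetric bilinear form on binary words. -/
def form (α : Type*) [Fintype α] : LinearMap.BilinForm (ZMod 2) (α → ZMod 2) :=
  dotProductBilin (ZMod 2) (ZMod 2)

omit [DecidableEq α] in
theorem form_apply (v w : α → ZMod 2) : form α v w = ∑ i, v i * w i := rfl

omit [DecidableEq α] in
theorem form_comm (v w : α → ZMod 2) : form α v w = form α w v := by
  rw [form_apply, form_apply]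
  exact Finset.sum_congr rfl fun i _ => mul_comm _ _

omit [DecidableEq α] in
theorem form_isRefl : (form α).IsRefl := by
  intro v w h
  rw [form_comm]
  exact h

theorem form_single (v : α → ZMod 2) (i : α) : form α v (Pi.single i 1) = v i := by
  rw [form_apply, Finset.sum_eq_single i]
  · simp
  · intro j _ hj
    simp [hj]
  · intro h
    exact absurd (Finset.mem_univ i) h

theorem form_nondegenerate : (form α).Nondegenerate := by
  constructor
  · intro v h
    funext i
    rw [← form_single v i]
    exact h _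
  · intro v h
    funext i
    rw [← form_single v i, form_comm]
    exact h _

/-- The indicator word of a finite set. -/
def ind (S : Finset α) : α → ZMod 2 := fun i => if i ∈ S then 1 else 0

omit [Fintype α] in
theorem ind_apply (S : Finset α) (i : α) : ind S i = if i ∈ S then 1 else 0 := rfl

omit [Fintype α] in
theorem ind_eq_one_iff (S : Finset α) (i : α) : ind S i = 1 ↔ i ∈ S := by
  rw [ind_apply]
  by_cases h : i ∈ S <;> simp [h]

omit [Fintype α] in
theorem ind_empty : ind (∅ : Finset α) = 0 := by
  funext i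
  simp [ind]

omit [Fintype α] in
theorem ind_symmDiff (S T : Finset α) : ind (symmDiff S T) = ind S + ind T := by
  funext i
  have h11 : (1 : ZMod 2) + 1 = 0 := by decide
  by_cases h1 : i ∈ S <;> by_cases h2 : i ∈ T <;>
    simp [ind, Finset.mem_symmDiff, h1, h2, h11]

theorem form_ind_right (v : α → ZMod 2) (S : Finset α) : form α v (ind S) = ∑ i ∈ S, v i := by
  rw [form_apply]
  simp [ind]

theorem form_ind (S T : Finset α) : form α (ind S) (ind T) = ((S ∩ T).card : ZMod 2) := by
  rw [form_ind_right, Finset.inter_comm]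
  simp [ind, Finset.sum_ite_mem]

theorem form_ind_eq_zero_iff (S T : Finset α) :
    form α (ind S) (ind T) = 0 ↔ Even (S ∩ T).card := by
  rw [form_ind, ZMod.natCast_eq_zero_iff, even_iff_two_dvd]

theorem hammingNorm_ind (S : Finset α) : hammingNorm (ind S) = S.card := by
  rw [hammingNorm]
  congr 1
  ext i
  simp [ind]

theorem eq_ind (w : α → ZMod 2) : w = ind (Finset.univ.filter fun i => w i ≠ 0) := by
  funext i
  have h : ∀ z : ZMod 2, z = if z ≠ 0 then 1 else 0 := by decide
  rw [ind_apply]
  simp only [Finset.mem_filter, Finset.mem_univ, true_and]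
  exact h (w i)

/-- Doubly even self-dual codes of length 24 without words of weight 4. -/
structure IsGolay (C : Submodule (ZMod 2) (α → ZMod 2)) : Prop where
  card_eq : Fintype.card α = 24
  finrank_eq : Module.finrank (ZMod 2) C = 12
  orth : ∀ v ∈ C, ∀ w ∈ C, ∑ i, v i * w i = 0
  four_dvd : ∀ w ∈ C, 4 ∣ hammingNorm w
  ne_four : ∀ w ∈ C, hammingNorm w ≠ 4

section

variable {C : Submodule (ZMod 2) (α → ZMod 2)}

omit [Fintype α] in
theorem symmDiff_mem {S T : Finset α} (hS : ind S ∈ C) (hT : ind T ∈ C) :
    ind (symmDiff S T) ∈ C := by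
  rw [ind_symmDiff]
  exact C.add_mem hS hT

theorem IsGolay.even_inter (h : IsGolay C) {S T : Finset α} (hS : ind S ∈ C) (hT : ind T ∈ C) :
    Even (S ∩ T).card := by
  rw [← form_ind_eq_zero_iff]
  exact h.orth _ hS _ hT

theorem IsGolay.eq_orthogonal (h : IsGolay C) : (form α).orthogonal C = C := by
  symm
  apply Submodule.eq_of_le_of_finrank_eq
  · intro v hv w hw
    exact h.orth w hw v hv
  · rw [LinearMap.BilinForm.finrank_orthogonal form_nondegenerate, h.finrank_eq,
      Module.finrank_fintype_fun_eq_card, h.card_eq]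

theorem IsGolay.mem_of_form (h : IsGolay C) {w : α → ZMod 2}
    (hw : ∀ T : Finset α, ind T ∈ C → form α w (ind T) = 0) : w ∈ C := by
  rw [← h.eq_orthogonal]
  intro v hv
  show form α v w = 0
  rw [form_comm]
  have := eq_ind v
  rw [this] at hv ⊢
  exact hw _ hv

theorem IsGolay.mem_of_even (h : IsGolay C) {S : Finset α}
    (hS : ∀ T : Finset α, ind T ∈ C → Even (S ∩ T).card) : ind S ∈ C :=
  h.mem_of_form fun T hT => (form_ind_eq_zero_iff S T).2 (hS T hT)

theorem IsGolay.dvd_card (h : IsGolay C) {S : Finset α} (hS : ind S ∈ C) : 4 ∣ S.card := by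
  rw [← hammingNorm_ind]
  exact h.four_dvd _ hS

theorem IsGolay.card_ne (h : IsGolay C) {S : Finset α} (hS : ind S ∈ C) : S.card ≠ 4 := by
  rw [← hammingNorm_ind]
  exact h.ne_four _ hS

theorem IsGolay.univ_mem (h : IsGolay C) : ind (Finset.univ : Finset α) ∈ C := by
  apply h.mem_of_even
  intro T hT
  rw [Finset.univ_inter]
  obtain ⟨k, hk⟩ := h.dvd_card hT
  exact ⟨2 * k, by omega⟩

theorem IsGolay.compl_mem (h : IsGolay C) {S : Finset α} (hS : ind S ∈ C) : ind Sᶜ ∈ C := by
  have h1 := symmDiff_mem h.univ_mem hS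
  have h2 : symmDiff (Finset.univ : Finset α) S = Sᶜ := by
    ext x
    simp [Finset.mem_symmDiff]
  rwa [h2] at h1

theorem IsGolay.card_cases (h : IsGolay C) {S : Finset α} (hS : ind S ∈ C) :
    S.card = 0 ∨ S.card = 8 ∨ S.card = 12 ∨ S.card = 16 ∨ S.card = 24 := by
  obtain ⟨k, hk⟩ := h.dvd_card hS
  have h1 := h.card_ne hS
  have h2 := h.card_ne (h.compl_mem hS)
  have h3 := Finset.card_compl_add_card S
  rw [h.card_eq] at h3
  have h4 : k ≤ 6 := by omega
  interval_cases k <;> omega

omit [Fintype α] in
theorem card_symmDiff_add (S T : Finset α) :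
    (symmDiff S T).card + 2 * (S ∩ T).card = S.card + T.card := by
  have h1 : (symmDiff S T).card = (S \ T).card + (T \ S).card := by
    rw [symmDiff_def, Finset.sup_eq_union, Finset.card_union_of_disjoint disjoint_sdiff_sdiff]
  have h2 := Finset.card_sdiff_add_card_inter S T
  have h3 := Finset.card_sdiff_add_card_inter T S
  rw [Finset.inter_comm T S] at h3
  omega

/-- There is a word of weight 12. -/
theorem IsGolay.exists_dodecad (h : IsGolay C) : ∃ D : Finset α, ind D ∈ C ∧ D.card = 12 := by
  by_contra hno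
  push Not at hno
  have h8 : ∀ S : Finset α, ind S ∈ C → 8 ∣ S.card := by
    intro S hS
    have := hno S hS
    rcases h.card_cases hS with h | h | h | h | h
    · exact ⟨0, by omega⟩
    · exact ⟨1, by omega⟩
    · exact absurd h this
    · exact ⟨2, by omega⟩
    · exact ⟨3, by omega⟩
  have h4 : ∀ S T : Finset α, ind S ∈ C → ind T ∈ C → 4 ∣ (S ∩ T).card := by
    intro S T hS hT
    have h1 := card_symmDiff_add S T
    obtain ⟨a, ha⟩ := h8 _ hS
    obtain ⟨b, hb⟩ := h8 _ hT
    obtain ⟨c, hc⟩ := h8 _ (symmDiff_mem hS hT)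
    exact ⟨a + b - c, by omega⟩
  have hinter : ∀ S T : Finset α, ind S ∈ C → ind T ∈ C → ind (S ∩ T) ∈ C := by
    intro S T hS hT
    apply h.mem_of_even
    intro U hU
    have h1 := card_symmDiff_add (S ∩ T) (S ∩ U)
    have h2 : symmDiff (S ∩ T) (S ∩ U) = S ∩ symmDiff T U := by
      ext x
      simp only [Finset.mem_symmDiff, Finset.mem_inter]
      tauto
    have h3 : (S ∩ T) ∩ (S ∩ U) = S ∩ T ∩ U := by
      ext x
      simp only [Finset.mem_inter]
      tauto
    rw [h2, h3] at h1
    obtain ⟨a, ha⟩ := h4 _ _ hS hT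
    obtain ⟨b, hb⟩ := h4 _ _ hS hU
    obtain ⟨c, hc⟩ := h4 _ _ hS (symmDiff_mem hT hU)
    rw [Nat.even_iff]
    omega
  -- a nonempty word of minimal size
  classical
  have hne : ∃ n, ∃ S : Finset α, ind S ∈ C ∧ S.card = n ∧ 0 < n :=
    ⟨24, Finset.univ, h.univ_mem, by rw [Finset.card_univ, h.card_eq], by omega⟩
  obtain ⟨S, hS, hSn, hn⟩ := Nat.find_spec hne
  have hmin : ∀ T : Finset α, ind T ∈ C → T.Nonempty → S.card ≤ T.card := by
    intro T hT hT0
    by_contra hlt
    push Not at hlt
    rw [hSn] at hlt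
    exact Nat.find_min hne hlt ⟨T, hT, rfl, Finset.card_pos.2 hT0⟩
  have hS8 : 1 < S.card := by
    obtain ⟨a, ha⟩ := h8 S hS
    omega
  obtain ⟨p, hp, q, hq, hpq⟩ := Finset.one_lt_card.1 hS8
  have hpair : ind ({p, q} : Finset α) ∈ C := by
    apply h.mem_of_even
    intro T hT
    rcases Finset.eq_empty_or_nonempty (S ∩ T) with h0 | h0
    · have : ({p, q} : Finset α) ∩ T = ∅ := by
        apply Finset.subset_empty.1
        rw [← h0]
        apply Finset.inter_subset_inter_right
        intro z hz
        simp only [Finset.mem_insert, Finset.mem_singleton] at hz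
        rcases hz with rfl | rfl <;> assumption
      rw [this]
      exact ⟨0, rfl⟩
    · have h1 := hmin _ (hinter S T hS hT) h0
      have h2 : S ∩ T = S := Finset.eq_of_subset_of_card_le Finset.inter_subset_left h1
      have h3 : S ⊆ T := Finset.inter_eq_left.1 h2
      have : ({p, q} : Finset α) ∩ T = {p, q} := by
        apply Finset.inter_eq_left.2
        intro z hz
        simp only [Finset.mem_insert, Finset.mem_singleton] at hz
        rcases hz with rfl | rfl
        · exact h3 hp
        · exact h3 hq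
      rw [this, Finset.card_pair hpq]
      exact ⟨1, rfl⟩
  have h1 := h.dvd_card hpair
  rw [Finset.card_pair hpq] at h1
  omega

theorem IsGolay.sub_dodecad (h : IsGolay C) {D S : Finset α} (hD : ind D ∈ C) (hDc : D.card = 12)
    (hS : ind S ∈ C) (hSD : S ⊆ D) : S = ∅ ∨ S = D := by
  have h1 := Finset.card_le_card hSD
  rcases h.card_cases hS with h0 | h0 | h0 | h0 | h0
  · left; exact Finset.card_eq_zero.1 h0
  · exfalso
    have h2 := card_symmDiff_add S D
    have h3 : S ∩ D = S := Finset.inter_eq_left.2 hSD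
    rw [h3] at h2
    exact h.card_ne (symmDiff_mem hS hD) (by omega)
  · right; exact Finset.eq_of_subset_of_card_le hSD (by omega)
  · omega
  · omega

/-- Any two points outside of a dodecad are the part outside of the dodecad of a word. -/
theorem IsGolay.exists_pair (h : IsGolay C) {D : Finset α} (hD : ind D ∈ C) (hDc : D.card = 12)
    {i j : α} (hi : i ∉ D) (hj : j ∉ D) (hij : i ≠ j) :
    ∃ S : Finset α, ind S ∈ C ∧ S \ D = {i, j} := by
  let Z : Submodule (ZMod 2) (α → ZMod 2) :=
    { carrier := {v | ∀ x, x ∉ D → v x = 0}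
      add_mem' := by
        intro v w hv hw x hx
        rw [Pi.add_apply, hv x hx, hw x hx, add_zero]
      zero_mem' := fun x _ => rfl
      smul_mem' := by
        intro c v hv x hx
        rw [Pi.smul_apply, hv x hx, smul_zero] }
  have hZ : ∀ v, v ∈ Z ↔ ∀ x, x ∉ D → v x = 0 := fun v => Iff.rfl
  have hmem : ind ({i, j} : Finset α) ∈ C ⊔ Z := by
    rw [← LinearMap.BilinForm.orthogonal_orthogonal form_nondegenerate form_isRefl (C ⊔ Z)]
    intro u hu
    show form α u (ind {i, j}) = 0
    have hu1 : ∀ v ∈ C ⊔ Z, form α v u = 0 := hu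
    have huC : u ∈ C := by
      apply h.mem_of_form
      intro T hT
      rw [form_comm]
      exact hu1 _ (Submodule.mem_sup_left hT)
    rw [eq_ind u] at huC ⊢
    set U := Finset.univ.filter fun x => u x ≠ 0 with hUdef
    have hU : U ⊆ Dᶜ := by
      intro x hx
      rw [Finset.mem_compl]
      intro hxD
      have h1 : form α (Pi.single x 1) u = 0 := by
        apply hu1
        apply Submodule.mem_sup_right
        rw [hZ]
        intro y hy
        have : y ≠ x := fun h => hy (h ▸ hxD)
        simp [this]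
      rw [form_comm, form_single] at h1
      rw [hUdef, Finset.mem_filter] at hx
      exact hx.2 h1
    have hDc' : Dᶜ.card = 12 := by
      rw [Finset.card_compl, h.card_eq, hDc]
    rw [form_ind_eq_zero_iff]
    rcases h.sub_dodecad (h.compl_mem hD) hDc' huC hU with h0 | h0
    · rw [h0, Finset.empty_inter]
      exact ⟨0, rfl⟩
    · have : Dᶜ ∩ {i, j} = {i, j} := by
        apply Finset.inter_eq_right.2
        intro z hz
        simp only [Finset.mem_insert, Finset.mem_singleton] at hz
        rw [Finset.mem_compl]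
        rcases hz with rfl | rfl <;> assumption
      rw [h0, this, Finset.card_pair hij]
      exact ⟨1, rfl⟩
  obtain ⟨c, hc, z, hz, hcz⟩ := Submodule.mem_sup.1 hmem
  refine ⟨Finset.univ.filter fun x => c x ≠ 0, by rw [← eq_ind]; exact hc, ?_⟩
  ext x
  simp only [Finset.mem_sdiff, Finset.mem_filter, Finset.mem_univ, true_and]
  constructor
  · rintro ⟨hcx, hxD⟩
    have h1 := congrFun hcz x
    rw [Pi.add_apply, (hZ z).1 hz x hxD, add_zero] at h1
    by_contra hx
    rw [ind_apply, if_neg hx] at h1
    exact hcx h1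
  · intro hx
    have hxD : x ∉ D := by
      simp only [Finset.mem_insert, Finset.mem_singleton] at hx
      rcases hx with rfl | rfl <;> assumption
    refine ⟨?_, hxD⟩
    have h1 := congrFun hcz x
    rw [Pi.add_apply, (hZ z).1 hz x hxD, add_zero, ind_apply, if_pos hx] at h1
    rw [h1]
    exact one_ne_zero

/-- A word meeting the outside of a dodecad in two points meets the dodecad in six points. -/
theorem IsGolay.card_inter_six (h : IsGolay C) {D : Finset α} (hD : ind D ∈ C) (hDc : D.card = 12)
    {S : Finset α} (hS : ind S ∈ C) (h2 : (S \ D).card = 2) : (S ∩ D).card = 6 := by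
  have h3 := Finset.card_sdiff_add_card_inter S D
  have h4 := card_symmDiff_add S D
  have h5 := h.dvd_card hS
  have h6 := h.card_ne hS
  have h7 := h.card_ne (symmDiff_mem hS hD)
  have h8 : (S ∩ D).card ≤ 12 := hDc ▸ Finset.card_le_card Finset.inter_subset_right
  omega

/-- For a point `a` of a dodecad and two points `b, j` outside there is a word through `a` whose
part outside of the dodecad is `{b, j}`. -/
theorem IsGolay.exists_flag (h : IsGolay C) {D : Finset α} (hD : ind D ∈ C) (hDc : D.card = 12)
    {a b j : α} (ha : a ∈ D) (hb : b ∉ D) (hj : j ∉ D) (hbj : b ≠ j) :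
    ∃ S : Finset α, ind S ∈ C ∧ a ∈ S ∧ S \ D = {b, j} := by
  obtain ⟨S, hS, hSD⟩ := h.exists_pair hD hDc hb hj hbj
  by_cases haS : a ∈ S
  · exact ⟨S, hS, haS, hSD⟩
  · refine ⟨symmDiff S D, symmDiff_mem hS hD, ?_, ?_⟩
    · rw [Finset.mem_symmDiff]
      exact Or.inr ⟨ha, haS⟩
    · rw [← hSD]
      ext x
      simp only [Finset.mem_sdiff, Finset.mem_symmDiff]
      tauto

theorem IsGolay.card_inter_three (h : IsGolay C) {D : Finset α} (hD : ind D ∈ C)
    (hDc : D.card = 12) {S T : Finset α} {b j k : α} (hS : ind S ∈ C) (hT : ind T ∈ C)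
    (hbj : b ≠ j) (hbk : b ≠ k) (hjk : j ≠ k)
    (hSD : S \ D = {b, j}) (hTD : T \ D = {b, k}) : (S ∩ T ∩ D).card = 3 := by
  have h1 := h.card_inter_six hD hDc hS (by rw [hSD, Finset.card_pair hbj])
  have h2 := h.card_inter_six hD hDc hT (by rw [hTD, Finset.card_pair hbk])
  have h3 : symmDiff S T \ D = {j, k} := by
    ext x
    have e1 := Finset.ext_iff.1 hSD x
    have e2 := Finset.ext_iff.1 hTD x
    simp only [Finset.mem_sdiff, Finset.mem_insert, Finset.mem_singleton] at e1 e2
    simp only [Finset.mem_sdiff, Finset.mem_insert, Finset.mem_singleton, Finset.mem_symmDiff]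
    constructor
    · rintro ⟨h | h, hx⟩
      · rcases e1.1 ⟨h.1, hx⟩ with rfl | rfl
        · exact absurd (e2.2 (Or.inl rfl)).1 h.2
        · exact Or.inl rfl
      · rcases e2.1 ⟨h.1, hx⟩ with rfl | rfl
        · exact absurd (e1.2 (Or.inl rfl)).1 h.2
        · exact Or.inr rfl
    · rintro (rfl | rfl)
      · obtain ⟨h4, h5⟩ := e1.2 (Or.inr rfl)
        refine ⟨Or.inl ⟨h4, fun h6 => ?_⟩, h5⟩
        rcases e2.1 ⟨h6, h5⟩ with h7 | h7
        · exact hbj h7.symm
        · exact hjk h7
      · obtain ⟨h4, h5⟩ := e2.2 (Or.inr rfl)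
        refine ⟨Or.inr ⟨h4, fun h6 => ?_⟩, h5⟩
        rcases e1.1 ⟨h6, h5⟩ with h7 | h7
        · exact hbk h7.symm
        · exact hjk h7.symm
  have h4 := h.card_inter_six hD hDc (symmDiff_mem hS hT) (by rw [h3, Finset.card_pair hjk])
  have h5 := card_symmDiff_add (S ∩ D) (T ∩ D)
  have h6 : symmDiff (S ∩ D) (T ∩ D) = symmDiff S T ∩ D := by
    ext x
    simp only [Finset.mem_symmDiff, Finset.mem_inter]
    tauto
  have h7 : (S ∩ D) ∩ (T ∩ D) = S ∩ T ∩ D := by
    ext x
    simp only [Finset.mem_inter]
    tauto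
  rw [h6, h7] at h5
  omega

/-- Membership test: a dodecad and the eleven words through `a`, `b`, `j` generate the code. -/
theorem IsGolay.mem_iff (h : IsGolay C) {D : Finset α} (hD : ind D ∈ C) (hDc : D.card = 12)
    {b : α} (S : α → Finset α)
    (hS : ∀ j, j ∉ D → j ≠ b → ind (S j) ∈ C ∧ S j \ D = {b, j}) (w : α → ZMod 2) :
    w ∈ C ↔ form α w (ind D) = 0 ∧ ∀ j, j ∉ D → j ≠ b → form α w (ind (S j)) = 0 := by
  constructor
  · intro hw
    exact ⟨h.orth _ hw _ hD, fun j hj hjb => h.orth _ hw _ (hS j hj hjb).1⟩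
  · rintro ⟨h1, h2⟩
    apply h.mem_of_form
    have key : ∀ n : ℕ, ∀ T : Finset α, ((T \ D).erase b).card = n → ind T ∈ C →
        form α w (ind T) = 0 := by
      intro n
      induction n using Nat.strong_induction_on with
      | _ n ih =>
        intro T hTn hT
        rcases Finset.eq_empty_or_nonempty ((T \ D).erase b) with h0 | ⟨j, hj⟩
        · have hTD : T \ D = ∅ := by
            have hev := h.even_inter hT (h.compl_mem hD)
            have hcompl : T ∩ Dᶜ = T \ D := by
              ext x
              simp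
            rw [hcompl] at hev
            have hsub : T \ D ⊆ {b} := by
              intro x hx
              rw [Finset.mem_singleton]
              by_contra hxb
              have hx' : x ∈ (T \ D).erase b := Finset.mem_erase.2 ⟨hxb, hx⟩
              rw [h0] at hx'
              exact absurd hx' (Finset.notMem_empty x)
            have hle := Finset.card_le_card hsub
            rw [Finset.card_singleton] at hle
            rw [← Finset.card_eq_zero]
            rw [Nat.even_iff] at hev
            omega
          rcases h.sub_dodecad hD hDc hT (Finset.sdiff_eq_empty_iff_subset.1 hTD) with h3 | h3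
          · rw [h3, ind_empty, map_zero]
          · rw [h3]
            exact h1
        · have hj' := hj
          rw [Finset.mem_erase, Finset.mem_sdiff] at hj'
          obtain ⟨hjb, hjT, hjD⟩ := hj'
          obtain ⟨hSj, hSjD⟩ := hS j hjD hjb
          have h3 : (symmDiff T (S j) \ D).erase b = ((T \ D).erase b).erase j := by
            ext x
            have e1 := Finset.ext_iff.1 hSjD x
            simp only [Finset.mem_sdiff, Finset.mem_insert, Finset.mem_singleton] at e1
            simp only [Finset.mem_sdiff, Finset.mem_symmDiff, Finset.mem_erase]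
            by_cases hxb : x = b
            · simp [hxb]
            by_cases hxj : x = j
            · subst hxj
              have := (e1.2 (Or.inr rfl)).1
              simp [this, hjT]
            · have : ¬ (x ∈ S j ∧ x ∉ D) := fun h5 => by
                rcases e1.1 h5 with h6 | h6
                · exact hxb h6
                · exact hxj h6
              tauto
          have h4 := ih _ (by
            have := Finset.card_erase_lt_of_mem hj
            omega) (symmDiff T (S j)) (congrArg Finset.card h3) (symmDiff_mem hT hSj)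
          rw [ind_symmDiff, map_add, h2 j hjD hjb, add_zero] at h4
          exact h4
    intro T hT
    exact key _ T rfl hT

/-- The model set of 24 points. -/
abbrev Pt : Type := Option (Fin 11) ⊕ Option (Fin 11)

/-- The model dodecad. -/
def D0 : Finset Pt := Finset.univ.filter fun x => x.isLeft

/-- The indicator functions of the model octads. -/
def s0 (j : Fin 11) (x : Pt) : Bool :=
  match x with
  | Sum.inl none => true
  | Sum.inl (some i) => Biplane.M1 j i
  | Sum.inr none => true
  | Sum.inr (some k) => decide (k = j)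

/-- The model octads. -/
def S0 (j : Fin 11) : Finset Pt := Finset.univ.filter fun x => s0 j x = true

theorem mem_S0 (j : Fin 11) (x : Pt) : x ∈ S0 j ↔ s0 j x = true := by
  rw [S0, Finset.mem_filter]
  exact and_iff_right (Finset.mem_univ _)

/-- Words of the model code. -/
def model (w : Pt → ZMod 2) : Prop :=
  form Pt w (ind D0) = 0 ∧ ∀ j, form Pt w (ind (S0 j)) = 0

omit [DecidableEq α] in
theorem form_equiv {β : Type*} [Fintype β] (e : β ≃ α) (v w : α → ZMod 2) :
    form α v w = form β (fun x => v (e x)) (fun x => w (e x)) := by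
  rw [form_apply, form_apply]
  exact (Equiv.sum_comp e fun i => v i * w i).symm

/-- Normal form of a Golay code: suitable coordinates turn it into the model code. -/
theorem IsGolay.exists_coords (h : IsGolay C) :
    ∃ e : Pt ≃ α, ∀ w : α → ZMod 2, w ∈ C ↔ model (fun x => w (e x)) := by
  obtain ⟨D, hD, hDc⟩ := h.exists_dodecad
  have hDc' : Dᶜ.card = 12 := by
    rw [Finset.card_compl, h.card_eq, hDc]
  have hD' := h.compl_mem hD
  obtain ⟨a, ha⟩ : D.Nonempty := Finset.card_pos.1 (by omega)
  obtain ⟨b, hb⟩ : Dᶜ.Nonempty := Finset.card_pos.1 (by omega)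
  rw [Finset.mem_compl] at hb
  have hS : ∀ j : α, ∃ S : Finset α, j ∉ D → j ≠ b → ind S ∈ C ∧ a ∈ S ∧ S \ D = {b, j} := by
    intro j
    by_cases h1 : j ∈ D
    · exact ⟨∅, fun h2 => absurd h1 h2⟩
    by_cases h2 : j = b
    · exact ⟨∅, fun _ h3 => absurd h2 h3⟩
    obtain ⟨S, hS⟩ := h.exists_flag hD hDc ha hb h1 (Ne.symm h2)
    exact ⟨S, fun _ _ => hS⟩
  choose S hS using hS
  have hU : ∀ i : α, ∃ U : Finset α, i ∈ D → i ≠ a → ind U ∈ C ∧ b ∈ U ∧ U \ Dᶜ = {a, i} := by
    intro i
    by_cases h1 : i ∈ D
    swap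
    · exact ⟨∅, fun h2 => absurd h2 h1⟩
    by_cases h2 : i = a
    · exact ⟨∅, fun _ h3 => absurd h2 h3⟩
    obtain ⟨U, hU⟩ := h.exists_flag hD' hDc' (Finset.mem_compl.2 hb)
      (fun h3 => (Finset.mem_compl.1 h3) ha) (fun h3 => (Finset.mem_compl.1 h3) h1) (Ne.symm h2)
    exact ⟨U, fun _ _ => hU⟩
  choose U hU using hU
  have hSm : ∀ j, j ∉ D → j ≠ b → ∀ x, x ∉ D → (x ∈ S j ↔ x = b ∨ x = j) := by
    intro j hj hjb x hx
    have := Finset.ext_iff.1 (hS j hj hjb).2.2 x
    simp only [Finset.mem_sdiff, Finset.mem_insert, Finset.mem_singleton] at this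
    tauto
  have hUm : ∀ i, i ∈ D → i ≠ a → ∀ x, x ∈ D → (x ∈ U i ↔ x = a ∨ x = i) := by
    intro i hi hia x hx
    have := Finset.ext_iff.1 (hU i hi hia).2.2 x
    simp only [Finset.mem_sdiff, Finset.mem_insert, Finset.mem_singleton, Finset.mem_compl,
      not_not] at this
    tauto
  -- duality
  have hdual : ∀ i j, i ∈ D → i ≠ a → j ∉ D → j ≠ b → (i ∈ S j ↔ j ∈ U i) := by
    intro i j hi hia hj hjb
    have hev := h.even_inter (hS j hj hjb).1 (hU i hi hia).1
    have h1 : S j ∩ U i = (({a, b} : Finset α) ∪ (if i ∈ S j then {i} else ∅)) ∪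
        (if j ∈ U i then {j} else ∅) := by
      ext x
      rw [Finset.mem_inter, Finset.mem_union, Finset.mem_union, Finset.mem_insert,
        Finset.mem_singleton]
      by_cases hx : x ∈ D
      · rw [hUm i hi hia x hx]
        have hxb : x ≠ b := fun h => hb (h ▸ hx)
        have hxj : x ≠ j := fun h => hj (h ▸ hx)
        have e1 : x ∉ (if j ∈ U i then ({j} : Finset α) else ∅) := by
          split_ifs
          · rwa [Finset.mem_singleton]
          · exact Finset.notMem_empty x
        have e2 : x ∈ (if i ∈ S j then ({i} : Finset α) else ∅) ↔ (i ∈ S j ∧ x = i) := by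
          split_ifs with h3
          · rw [Finset.mem_singleton]; tauto
          · simp [h3]
        have e3 : a ∈ S j := (hS j hj hjb).2.1
        rw [e2]
        constructor
        · rintro ⟨h4, rfl | rfl⟩
          · exact Or.inl (Or.inl (Or.inl rfl))
          · exact Or.inl (Or.inr ⟨h4, rfl⟩)
        · rintro (((rfl | h4) | ⟨h4, rfl⟩) | h4)
          · exact ⟨e3, Or.inl rfl⟩
          · exact absurd h4 hxb
          · exact ⟨h4, Or.inr rfl⟩
          · exact absurd h4 e1
      · rw [hSm j hj hjb x hx]
        have hxa : x ≠ a := fun h => hx (h ▸ ha)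
        have hxi : x ≠ i := fun h => hx (h ▸ hi)
        have e1 : x ∉ (if i ∈ S j then ({i} : Finset α) else ∅) := by
          split_ifs
          · rwa [Finset.mem_singleton]
          · exact Finset.notMem_empty x
        have e2 : x ∈ (if j ∈ U i then ({j} : Finset α) else ∅) ↔ (j ∈ U i ∧ x = j) := by
          split_ifs with h3
          · rw [Finset.mem_singleton]; tauto
          · simp [h3]
        have e3 : b ∈ U i := (hU i hi hia).2.1
        rw [e2]
        constructor
        · rintro ⟨rfl | rfl, h4⟩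
          · exact Or.inl (Or.inl (Or.inr rfl))
          · exact Or.inr ⟨h4, rfl⟩
        · rintro (((h4 | rfl) | h4) | ⟨h4, rfl⟩)
          · exact absurd h4 hxa
          · exact ⟨Or.inl rfl, e3⟩
          · exact absurd h4 e1
          · exact ⟨Or.inr rfl, h4⟩
    have hab : a ≠ b := fun h => hb (h ▸ ha)
    have hij : i ≠ j := fun h => hj (h ▸ hi)
    have hib : i ≠ b := fun h => hb (h ▸ hi)
    have hja : j ≠ a := fun h => hj (h ▸ ha)
    rw [h1] at hev
    by_cases h2 : i ∈ S j <;> by_cases h3 : j ∈ U i
    · tauto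
    · exfalso
      rw [if_pos h2, if_neg h3, Finset.union_empty, Finset.card_union_of_disjoint
        (by simp [hia, hib]), Finset.card_pair hab, Finset.card_singleton,
        Nat.even_iff] at hev
      omega
    · exfalso
      rw [if_neg h2, if_pos h3, Finset.union_empty, Finset.card_union_of_disjoint
        (by simp [hja, hjb]), Finset.card_pair hab, Finset.card_singleton,
        Nat.even_iff] at hev
      omega
    · tauto
  -- the biplane
  let E : Type _ := {i : α // i ∈ D ∧ i ≠ a}
  let F : Type _ := {j : α // j ∉ D ∧ j ≠ b}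
  have cE : ∀ s : Finset α, s ⊆ D → (Finset.univ.filter fun i : E => i.1 ∈ s).card =
      (s.erase a).card := by
    intro s hs
    rw [← Finset.card_map (Function.Embedding.subtype _)]
    congr 1
    ext x
    simp only [Finset.mem_map, Finset.mem_filter, Finset.mem_univ, true_and,
      Function.Embedding.coe_subtype, Finset.mem_erase]
    constructor
    · rintro ⟨y, hy, rfl⟩
      exact ⟨y.2.2, hy⟩
    · rintro ⟨h1, h2⟩
      exact ⟨⟨x, hs h2, h1⟩, h2, rfl⟩
  have cF : ∀ s : Finset α, s ⊆ Dᶜ → (Finset.univ.filter fun i : F => i.1 ∈ s).card =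
      (s.erase b).card := by
    intro s hs
    rw [← Finset.card_map (Function.Embedding.subtype _)]
    congr 1
    ext x
    simp only [Finset.mem_map, Finset.mem_filter, Finset.mem_univ, true_and,
      Function.Embedding.coe_subtype, Finset.mem_erase]
    constructor
    · rintro ⟨y, hy, rfl⟩
      exact ⟨y.2.2, hy⟩
    · rintro ⟨h1, h2⟩
      exact ⟨⟨x, Finset.mem_compl.1 (hs h2), h1⟩, h2, rfl⟩
  have hE : Fintype.card E = 11 := by
    have h1 := cE D (Finset.Subset.refl D)
    rw [Finset.card_erase_of_mem ha, hDc] at h1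
    rw [← Finset.card_univ]
    convert h1 using 2
    ext x
    simp [x.2.1]
  have hF : Fintype.card F = 11 := by
    have h1 := cF Dᶜ (Finset.Subset.refl _)
    rw [Finset.card_erase_of_mem (Finset.mem_compl.2 hb), hDc'] at h1
    rw [← Finset.card_univ]
    convert h1 using 2
    ext x
    simp [x.2.1]
  let A : F → Finset E := fun j => Finset.univ.filter fun i : E => i.1 ∈ S j.1 ∩ D
  have hA : ∀ (j : F) (i : E), i ∈ A j ↔ i.1 ∈ S j.1 := by
    intro j i
    simp [A, i.2.1]
  have h1 : ∀ j, (A j).card = 5 := by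
    intro j
    have h2 := hS j.1 j.2.1 j.2.2
    rw [cE _ Finset.inter_subset_right, Finset.card_erase_of_mem (Finset.mem_inter.2 ⟨h2.2.1, ha⟩),
      h.card_inter_six hD hDc h2.1 (by rw [h2.2.2, Finset.card_pair j.2.2.symm])]
  have h2 : ∀ j k, j ≠ k → (A j ∩ A k).card = 2 := by
    intro j k hjk
    have h3 := hS j.1 j.2.1 j.2.2
    have h4 := hS k.1 k.2.1 k.2.2
    have h5 := h.card_inter_three hD hDc h3.1 h4.1 j.2.2.symm k.2.2.symm
      (fun h => hjk (Subtype.ext h)) h3.2.2 h4.2.2
    have h6 := cE (S j.1 ∩ S k.1 ∩ D) Finset.inter_subset_right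
    rw [Finset.card_erase_of_mem (Finset.mem_inter.2 ⟨Finset.mem_inter.2 ⟨h3.2.1, h4.2.1⟩, ha⟩),
      h5] at h6
    rw [show (2 : ℕ) = 3 - 1 from rfl, ← h6]
    congr 1
    ext x
    simp only [Finset.mem_inter, hA, Finset.mem_filter, Finset.mem_univ, true_and]
    have := x.2.1
    tauto
  have h3 : ∀ i i', i ≠ i' → (Finset.univ.filter fun j => i ∈ A j ∧ i' ∈ A j).card = 2 := by
    intro i k hik
    have h3 := hU i.1 i.2.1 i.2.2
    have h4 := hU k.1 k.2.1 k.2.2
    have h5 := h.card_inter_three hD' hDc' h3.1 h4.1 i.2.2.symm k.2.2.symm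
      (fun h => hik (Subtype.ext h)) h3.2.2 h4.2.2
    have h6 := cF (U i.1 ∩ U k.1 ∩ Dᶜ) Finset.inter_subset_right
    rw [Finset.card_erase_of_mem (Finset.mem_inter.2 ⟨Finset.mem_inter.2 ⟨h3.2.1, h4.2.1⟩,
      Finset.mem_compl.2 hb⟩), h5] at h6
    rw [show (2 : ℕ) = 3 - 1 from rfl, ← h6]
    congr 1
    ext x
    simp only [Finset.mem_inter, hA, Finset.mem_filter, Finset.mem_univ, true_and,
      Finset.mem_compl]
    rw [hdual i.1 x.1 i.2.1 i.2.2 x.2.1 x.2.2, hdual k.1 x.1 k.2.1 k.2.2 x.2.1 x.2.2]
    have := x.2.1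
    tauto
  obtain ⟨f, g, hfg⟩ := Biplane.exists_label hE hF A h1 h2 h3
  -- the coordinates
  let e0 : Pt → α := fun x =>
    match x with
    | Sum.inl none => a
    | Sum.inl (some i) => (g i).1
    | Sum.inr none => b
    | Sum.inr (some j) => (f j).1
  have hl : ∀ x, e0 (Sum.inl x) ∈ D := by
    intro x
    rcases x with _ | i
    · exact ha
    · exact (g i).2.1
  have hr : ∀ x, e0 (Sum.inr x) ∉ D := by
    intro x
    rcases x with _ | j
    · exact hb
    · exact (f j).2.1
  have hinj : Function.Injective e0 := by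
    intro x y hxy
    rcases x with x | x <;> rcases y with y | y
    · rcases x with _ | i <;> rcases y with _ | k
      · rfl
      · exact absurd hxy.symm (g k).2.2
      · exact absurd hxy (g i).2.2
      · rw [g.injective (Subtype.ext hxy)]
    · exact absurd (hxy ▸ hl x) (hr y)
    · exact absurd (hxy ▸ hl y) (hr x)
    · rcases x with _ | i <;> rcases y with _ | k
      · rfl
      · exact absurd hxy.symm (f k).2.2
      · exact absurd hxy (f i).2.2
      · rw [f.injective (Subtype.ext hxy)]
  have hbij : Function.Bijective e0 :=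
    (Fintype.bijective_iff_injective_and_card e0).2 ⟨hinj, by rw [h.card_eq]; rfl⟩
  let e : Pt ≃ α := Equiv.ofBijective e0 hbij
  have heD : (fun x => ind D (e x)) = ind D0 := by
    funext x
    rcases x with x | x
    · have h4 : e (Sum.inl x) ∈ D := hl x
      rw [(ind_eq_one_iff _ _).2 h4]
      simp [ind_apply, D0]
    · have h4 : e (Sum.inr x) ∉ D := hr x
      rw [ind_apply, if_neg h4]
      simp [ind_apply, D0]
  have heS : ∀ j : Fin 11, (fun x => ind (S (f j).1) (e x)) = ind (S0 j) := by
    intro j
    obtain ⟨hS1, hS2, hS3⟩ := hS (f j).1 (f j).2.1 (f j).2.2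
    funext x
    rw [ind_apply, ind_apply]
    congr 1
    rw [eq_iff_iff]
    rcases x with x | x
    · rcases x with _ | i
      · refine ⟨fun _ => ?_, fun _ => hS2⟩
        simp [mem_S0, s0]
      · have h5 : e (Sum.inl (some i)) = (g i).1 := rfl
        rw [h5, ← hA, hfg]
        simp [mem_S0, s0]
    · have h6 := hSm (f j).1 (f j).2.1 (f j).2.2 (e (Sum.inr x)) (hr x)
      rw [h6]
      rcases x with _ | k
      · refine ⟨fun _ => ?_, fun _ => Or.inl rfl⟩
        simp [mem_S0, s0]
      · have h5 : e (Sum.inr (some k)) = (f k).1 := rfl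
        rw [h5]
        constructor
        · rintro (h7 | h7)
          · exact absurd h7 (f k).2.2
          · have := f.injective (Subtype.ext h7)
            simp [mem_S0, s0, this]
        · intro h7
          have h8 : k = j := by simpa [mem_S0, s0] using h7
          rw [h8]
          exact Or.inr rfl
  refine ⟨e, fun w => ?_⟩
  rw [h.mem_iff hD hDc S (fun j hj hjb => ⟨(hS j hj hjb).1, (hS j hj hjb).2.2⟩) w]
  rw [form_equiv e, heD]
  unfold model
  refine and_congr_right fun _ => ?_
  constructor
  · intro h4 j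
    rw [← heS j, ← form_equiv e]
    exact h4 _ (f j).2.1 (f j).2.2
  · intro h4 j hj hjb
    have h5 := h4 (f.symm ⟨j, hj, hjb⟩)
    rw [← heS, ← form_equiv e, f.apply_symm_apply] at h5
    exact h5

/-- **Uniqueness of the Golay code.** -/
theorem IsGolay.exists_equiv {β : Type*} [Fintype β] [DecidableEq β] (h : IsGolay C)
    {C' : Submodule (ZMod 2) (β → ZMod 2)} (h' : IsGolay C') :
    ∃ e : α ≃ β, ∀ w : β → ZMod 2, w ∈ C' ↔ (fun i => w (e i)) ∈ C := by
  obtain ⟨e1, he1⟩ := h.exists_coords
  obtain ⟨e2, he2⟩ := h'.exists_coords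
  refine ⟨e1.symm.trans e2, fun w => ?_⟩
  rw [he2, he1]
  have : (fun x => (fun i => w ((e1.symm.trans e2) i)) (e1 x)) = fun x => w (e2 x) := by
    funext x
    simp
  rw [this]

end

theorem exists_equiv_of_codes {α β : Type*} [Fintype α] [DecidableEq α] [Fintype β]
    [DecidableEq β] (hα : Fintype.card α = 24) (hβ : Fintype.card β = 24)
    (C : Submodule (ZMod 2) (α → ZMod 2)) (C' : Submodule (ZMod 2) (β → ZMod 2))
    (hdim : Module.finrank (ZMod 2) C = 12) (horth : ∀ v ∈ C, ∀ w ∈ C, ∑ i, v i * w i = 0)
    (h4 : ∀ w ∈ C, 4 ∣ hammingNorm w) (hno4 : ∀ w ∈ C, hammingNorm w ≠ 4)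
    (hdim' : Module.finrank (ZMod 2) C' = 12) (horth' : ∀ v ∈ C', ∀ w ∈ C', ∑ i, v i * w i = 0)
    (h4' : ∀ w ∈ C', 4 ∣ hammingNorm w) (hno4' : ∀ w ∈ C', hammingNorm w ≠ 4) :
    ∃ e : α ≃ β, ∀ w : β → ZMod 2, w ∈ C' ↔ (fun i => w (e i)) ∈ C :=
  IsGolay.exists_equiv ⟨hα, hdim, horth, h4, hno4⟩ ⟨hβ, hdim', horth', h4', hno4'⟩

end Cfsg.Agent.SporadicA.CodeUnique
end
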