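import Mathlib
set_option linter.all false

/-!
# Degrees of sharply `k`-transitive groups, `k ≥ 4` (Jordan, Tits)

No finiteness of the set is assumed.  The proof is a local count in the centraliser of an
involution `t` that swaps `a, b` and fixes `k - 2` points.  Let `F` be the set of fixed points
of `t`, and let `H` be the group of elements that commute with `t` and fix `a`, `b` and a set
`D ⊆ F` of `k - 4` points.  Then `H` is regular on the ordered pairs of distinct points of
`F \ D` and also on the points outside `F ∪ {a, b}`.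
-/

set_option autoImplicit false

namespace Cfsg.Agent.SporadicA.SharplyK

open MulAction

variable {G : Type*} [Group G] {α : Type*} [MulAction G α] {k : ℕ}

/-- The existence half of sharp `k`-transitivity, on finsets. -/
def HasE (G : Type*) [Group G] (α : Type*) [MulAction G α] (k : ℕ) : Prop :=
  ∀ S : Finset α, S.card = k → ∀ φ : α → α, Set.InjOn φ S → ∃ g : G, ∀ s ∈ S, g • s = φ s

/-- The uniqueness half of sharp `k`-transitivity, on finsets. -/
def HasU (G : Type*) [Group G] (α : Type*) [MulAction G α] (k : ℕ) : Prop :=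
  ∀ S : Finset α, k ≤ S.card → ∀ g : G, (∀ s ∈ S, g • s = s) → g = 1

theorem hasE_of_isMultiplyPretransitive [IsMultiplyPretransitive G α k] : HasE G α k := by
  classical
  intro S hS φ hφ
  let e : Fin k ≃ S := (Fintype.equivFinOfCardEq (by simpa using hS)).symm
  let x : Fin k ↪ α := e.toEmbedding.trans (Function.Embedding.subtype _)
  let y : Fin k ↪ α := ⟨fun i => φ (e i), fun i j hij => by
    have := hφ (e i).2 (e j).2 hij
    exact e.injective (Subtype.ext this)⟩
  obtain ⟨g, hg⟩ := exists_smul_eq G x y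
  refine ⟨g, fun s hs => ?_⟩
  have h1 : g • x (e.symm ⟨s, hs⟩) = φ (e (e.symm ⟨s, hs⟩)) :=
    DFunLike.congr_fun hg (e.symm ⟨s, hs⟩)
  simpa [x] using h1

theorem hasU_of_stabilizer_eq_bot (hsharp : ∀ x : Fin k ↪ α, stabilizer G x = ⊥) :
    HasU G α k := by
  classical
  intro S hS g hg
  obtain ⟨T, hTS, hT⟩ := Finset.exists_subset_card_eq hS
  let e : Fin k ≃ T := (Fintype.equivFinOfCardEq (by simpa using hT)).symm
  let x : Fin k ↪ α := e.toEmbedding.trans (Function.Embedding.subtype _)
  have hx : g ∈ stabilizer G x := by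
    rw [mem_stabilizer_iff]
    ext i
    exact hg _ (hTS (e i).2)
  rw [hsharp x] at hx
  exact Subgroup.mem_bot.mp hx

theorem HasU.commute (U : HasU G α k) {t g : G} (S : Finset α) (hS : k ≤ S.card)
    (h : ∀ s ∈ S, g • t • s = t • g • s) : g * t = t * g := by
  have : (t * g)⁻¹ * (g * t) = 1 :=
    U S hS _ (fun s hs => by rw [mul_smul, inv_smul_eq_iff, mul_smul, mul_smul, h s hs])
  exact (inv_mul_eq_one.mp this).symm

/-- `t` is an involution swapping `a` and `b`, with the set `F` of fixed points of size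
`k - 2` or `k - 1`. -/
structure Invol (k : ℕ) (t : G) (a b : α) (F : Finset α) : Prop where
  ne : a ≠ b
  ta : t • a = b
  tb : t • b = a
  tt : t * t = 1
  memF : ∀ x, x ∈ F ↔ t • x = x
  le : k ≤ F.card + 2
  lt : F.card + 1 ≤ k

theorem exists_invol (hk : 2 ≤ k) (E : HasE G α k) (U : HasU G α k)
    (T : Finset α) (hT : T.card = k) :
    ∃ (t : G) (a b : α) (F : Finset α), Invol k t a b F := by
  classical
  have h1 : 1 < T.card := by omega
  obtain ⟨a, ha, b, hb, hab⟩ := Finset.one_lt_card.mp h1
  obtain ⟨t, ht⟩ := E T hT (Equiv.swap a b) (Equiv.injective _).injOn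
  have hta : t • a = b := by rw [ht a ha, Equiv.swap_apply_left]
  have htb : t • b = a := by rw [ht b hb, Equiv.swap_apply_right]
  have hfix : ∀ s ∈ T, s ≠ a → s ≠ b → t • s = s := fun s hs h1 h2 => by
    rw [ht s hs, Equiv.swap_apply_of_ne_of_ne h1 h2]
  have htt : t * t = 1 := U T hT.ge _ (fun s hs => by
    rw [mul_smul]
    by_cases h1 : s = a
    · rw [h1, hta, htb]
    by_cases h2 : s = b
    · rw [h2, htb, hta]
    rw [hfix s hs h1 h2, hfix s hs h1 h2])
  have ht1 : t ≠ 1 := by
    rintro rfl
    exact hab (by simpa using hta)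
  have hcard : ∀ S : Finset α, (∀ s ∈ S, t • s = s) → S.card < k := by
    intro S hS
    by_contra hcon
    exact ht1 (U S (not_lt.mp hcon) t hS)
  have hfin : {x : α | t • x = x}.Finite := by
    by_contra hinf
    obtain ⟨S, hS, hSc⟩ := Set.Infinite.exists_subset_card_eq hinf k
    have := hcard S (fun s hs => hS hs)
    omega
  refine ⟨t, a, b, hfin.toFinset, hab, hta, htb, htt, fun x => by simp, ?_, ?_⟩
  · have hsub : (T.erase a).erase b ⊆ hfin.toFinset := by
      intro s hs
      rw [Finset.mem_erase, Finset.mem_erase] at hs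
      simpa using hfix s hs.2.2 hs.2.1 hs.1
    have h2 := Finset.card_le_card hsub
    rw [Finset.card_erase_of_mem (Finset.mem_erase.mpr ⟨hab.symm, hb⟩),
      Finset.card_erase_of_mem ha] at h2
    omega
  · exact hcard _ (fun s hs => by simpa using hs)

namespace Invol

variable {t : G} {a b : α} {F : Finset α}

theorem smul_smul (h : Invol k t a b F) (x : α) : t • t • x = x := by
  rw [← mul_smul, h.tt, one_smul]

theorem a_notMem (h : Invol k t a b F) : a ∉ F := by
  rw [h.memF, h.ta]; exact h.ne.symm

theorem b_notMem (h : Invol k t a b F) : b ∉ F := by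
  rw [h.memF, h.tb]; exact h.ne

/-- Existence of a commuting element with prescribed values on a `t`-invariant `k`-set. -/
theorem exists_commuting (_h : Invol k t a b F) (E : HasE G α k) (U : HasU G α k)
    (S : Finset α) (hS : S.card = k) (hSt : ∀ s ∈ S, t • s ∈ S) (φ : α → α)
    (hφ : Set.InjOn φ S) (hφt : ∀ s ∈ S, φ (t • s) = t • φ s) :
    ∃ g : G, g * t = t * g ∧ ∀ s ∈ S, g • s = φ s := by
  obtain ⟨g, hg⟩ := E S hS φ hφ
  refine ⟨g, U.commute S hS.ge (fun s hs => ?_), hg⟩
  rw [hg s hs, hg _ (hSt s hs), hφt s hs]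

/-- The set of elements commuting with `t` and fixing `a`, `b` and `D` pointwise. -/
def HSet (t : G) (a b : α) (D : Finset α) : Set G :=
  {g | g * t = t * g ∧ g • a = a ∧ g • b = b ∧ ∀ x ∈ D, g • x = x}

theorem smul_t_smul {g : G} (hg : g * t = t * g) (x : α) : g • t • x = t • g • x := by
  rw [← mul_smul, hg, mul_smul]

theorem smul_mem_F (h : Invol k t a b F) {g : G} (hg : g * t = t * g) {x : α} (hx : x ∈ F) :
    g • x ∈ F := by
  rw [h.memF] at hx ⊢
  rw [← smul_t_smul hg, hx]

theorem smul_notMem_F (h : Invol k t a b F) {g : G} (hg : g * t = t * g) {x : α}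
    (hx : x ∉ F) : g • x ∉ F := by
  intro hc
  apply hx
  rw [h.memF] at hc ⊢
  rw [← smul_t_smul hg] at hc
  exact MulAction.injective g hc

/-- The points that are outside `F ∪ {a, b}`. -/
def XSet (a b : α) (F : Finset α) : Set α := {x | x ∉ F ∧ x ≠ a ∧ x ≠ b}

theorem t_mem_XSet (h : Invol k t a b F) {x : α} (hx : x ∈ XSet a b F) :
    t • x ∈ XSet a b F := by
  refine ⟨h.smul_notMem_F rfl hx.1, fun hc => hx.2.2 ?_, fun hc => hx.2.1 ?_⟩
  · rw [← h.smul_smul x, hc, h.ta]
  · rw [← h.smul_smul x, hc, h.tb]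

theorem t_ne_of_mem_XSet (h : Invol k t a b F) {x : α} (hx : x ∈ XSet a b F) : t • x ≠ x :=
  fun hc => hx.1 ((h.memF x).mpr hc)

/-- Regularity on pairs. -/
theorem bijective_pair (h : Invol k t a b F) (E : HasE G α k) (U : HasU G α k)
    {D : Finset α} (hD : D ⊆ F) (hDc : D.card + 4 = k) {c d : α} (hc : c ∈ F) (hd : d ∈ F)
    (hcD : c ∉ D) (hdD : d ∉ D) (hcd : c ≠ d) :
    ∃ f : HSet t a b D → {p : α × α | p.1 ∈ F ∧ p.2 ∈ F ∧ p.1 ∉ D ∧ p.2 ∉ D ∧ p.1 ≠ p.2},
      Function.Bijective f := by
  classical
  have haF := h.a_notMem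
  have hbF := h.b_notMem
  have hab := h.ne
  have hne : ∀ {x y : α}, x ∈ F → y ∉ F → x ≠ y := fun hx hy he => hy (he ▸ hx)
  have hne' : ∀ {x y : α}, x ∉ D → y ∈ D → x ≠ y := fun hx hy he => hx (he ▸ hy)
  -- the `k`-set
  have hScard : (insert a (insert b (insert c (insert d D)))).card = k := by
    rw [Finset.card_insert_of_notMem, Finset.card_insert_of_notMem,
      Finset.card_insert_of_notMem, Finset.card_insert_of_notMem hdD]
    · omega
    · simp [hcd, hcD]
    · simp only [Finset.mem_insert, not_or]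
      exact ⟨(hne hc hbF).symm, (hne hd hbF).symm, fun hx => hbF (hD hx)⟩
    · simp only [Finset.mem_insert, not_or]
      exact ⟨hab, (hne hc haF).symm, (hne hd haF).symm, fun hx => haF (hD hx)⟩
  set S : Finset α := insert a (insert b (insert c (insert d D))) with hSdef
  have hSmem : ∀ x, x ∈ S ↔ x = a ∨ x = b ∨ x = c ∨ x = d ∨ x ∈ D := by
    intro x; simp [hSdef]
  refine ⟨fun g => ⟨((g : G) • c, (g : G) • d), ?_⟩, ?_, ?_⟩
  · obtain ⟨g, hg, hga, hgb, hgD⟩ := g
    refine ⟨h.smul_mem_F hg hc, h.smul_mem_F hg hd, fun hx => ?_, fun hx => ?_, fun hx => ?_⟩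
    · have h1 := hgD _ hx
      exact hcD (by have := MulAction.injective g h1; rwa [this] at hx)
    · have h1 := hgD _ hx
      exact hdD (by have := MulAction.injective g h1; rwa [this] at hx)
    · exact hcd (MulAction.injective g hx)
  · rintro ⟨g, hg, hga, hgb, hgD⟩ ⟨g', hg', hga', hgb', hgD'⟩ hgg
    simp only [Subtype.mk.injEq, Prod.mk.injEq] at hgg
    apply Subtype.ext
    show g = g'
    have : g'⁻¹ * g = 1 := U S hScard.ge _ (fun s hs => by
      rw [mul_smul, inv_smul_eq_iff]
      rcases (hSmem s).mp hs with rfl | rfl | rfl | rfl | hs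
      · rw [hga, hga']
      · rw [hgb, hgb']
      · exact hgg.1
      · exact hgg.2
      · rw [hgD s hs, hgD' s hs])
    exact (inv_mul_eq_one.mp this).symm
  · rintro ⟨⟨c', d'⟩, hc', hd', hcD', hdD', hcd'⟩
    simp only at hc' hd' hcD' hdD' hcd'
    let φ : α → α := fun x => if x = c then c' else if x = d then d' else x
    have φc : φ c = c' := by simp [φ]
    have φd : φ d = d' := by simp [φ, hcd.symm]
    have φo : ∀ x, x ≠ c → x ≠ d → φ x = x := fun x h1 h2 => by simp [φ, h1, h2]
    have φa : φ a = a := φo a (hne hc haF).symm (hne hd haF).symm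
    have φb : φ b = b := φo b (hne hc hbF).symm (hne hd hbF).symm
    have φD : ∀ x ∈ D, φ x = x := fun x hx =>
      φo x (hne' hcD hx).symm (hne' hdD hx).symm
    have hSt : ∀ s ∈ S, t • s ∈ S := by
      intro s hs
      rcases (hSmem s).mp hs with rfl | rfl | rfl | rfl | hs'
      · rw [h.ta, hSmem]; simp
      · rw [h.tb, hSmem]; simp
      · rwa [(h.memF _).mp hc]
      · rwa [(h.memF _).mp hd]
      · rwa [(h.memF _).mp (hD hs')]
    have hinj : Set.InjOn φ S := by
      intro x hx y hy hxy
      rcases (hSmem x).mp hx with rfl | rfl | rfl | rfl | hx' <;>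
      rcases (hSmem y).mp hy with rfl | rfl | rfl | rfl | hy' <;>
      first
        | rfl
        | (try simp only [φa, φb, φc, φd] at hxy
           first
            | exact absurd hxy hab
            | exact absurd hxy hab.symm
            | exact absurd hxy hcd'
            | exact absurd hxy hcd'.symm
            | exact absurd hxy (hne hc' haF)
            | exact absurd hxy (hne hc' haF).symm
            | exact absurd hxy (hne hc' hbF)
            | exact absurd hxy (hne hc' hbF).symm
            | exact absurd hxy (hne hd' haF)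
            | exact absurd hxy (hne hd' haF).symm
            | exact absurd hxy (hne hd' hbF)
            | exact absurd hxy (hne hd' hbF).symm
            | (rw [φD _ hx'] at hxy; first
                | exact absurd hxy (hne (hD hx') haF)
                | exact absurd hxy (hne (hD hx') hbF)
                | exact absurd hxy.symm (hne' hcD' hx')
                | exact absurd hxy.symm (hne' hdD' hx')
                | (rw [φD _ hy'] at hxy; exact hxy))
            | (rw [φD _ hy'] at hxy; first
                | exact absurd hxy.symm (hne (hD hy') haF)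
                | exact absurd hxy.symm (hne (hD hy') hbF)
                | exact absurd hxy (hne' hcD' hy')
                | exact absurd hxy (hne' hdD' hy')))
    have hφt : ∀ s ∈ S, φ (t • s) = t • φ s := by
      intro s hs
      rcases (hSmem s).mp hs with rfl | rfl | rfl | rfl | hs'
      · rw [h.ta, φb, φa, h.ta]
      · rw [h.tb, φb, φa, h.tb]
      · rw [(h.memF _).mp hc, φc, (h.memF _).mp hc']
      · rw [(h.memF _).mp hd, φd, (h.memF _).mp hd']
      · rw [(h.memF _).mp (hD hs'), φD s hs', (h.memF _).mp (hD hs')]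
    obtain ⟨g, hg, hgS⟩ := h.exists_commuting E U S hScard hSt φ hinj hφt
    refine ⟨⟨g, hg, ?_, ?_, ?_⟩, ?_⟩
    · rw [hgS a ((hSmem _).mpr (by simp)), φa]
    · rw [hgS b ((hSmem _).mpr (by simp)), φb]
    · intro x hx
      rw [hgS x ((hSmem _).mpr (by simp [hx])), φD x hx]
    · apply Subtype.ext
      show (g • c, g • d) = (c', d')
      rw [hgS c ((hSmem _).mpr (by simp)), hgS d ((hSmem _).mpr (by simp)), φc, φd]

/-- Regularity on the points outside `F ∪ {a, b}`. -/
theorem bijective_point (h : Invol k t a b F) (E : HasE G α k) (U : HasU G α k)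
    {D : Finset α} (hD : D ⊆ F) (hDc : D.card + 4 = k) {e : α} (he : e ∈ XSet a b F) :
    ∃ f : HSet t a b D → XSet a b F, Function.Bijective f := by
  classical
  have haF := h.a_notMem
  have hbF := h.b_notMem
  have hab := h.ne
  have hne : ∀ {x y : α}, x ∈ F → y ∉ F → x ≠ y := fun hx hy he => hy (he ▸ hx)
  have hte := h.t_mem_XSet he
  have htne := h.t_ne_of_mem_XSet he
  have hScard : (insert a (insert b (insert e (insert (t • e) D)))).card = k := by
    rw [Finset.card_insert_of_notMem, Finset.card_insert_of_notMem,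
      Finset.card_insert_of_notMem, Finset.card_insert_of_notMem]
    · omega
    · exact fun hx => hte.1 (hD hx)
    · simp only [Finset.mem_insert, not_or]
      exact ⟨htne.symm, fun hx => he.1 (hD hx)⟩
    · simp only [Finset.mem_insert, not_or]
      exact ⟨he.2.2.symm, hte.2.2.symm, fun hx => hbF (hD hx)⟩
    · simp only [Finset.mem_insert, not_or]
      exact ⟨hab, he.2.1.symm, hte.2.1.symm, fun hx => haF (hD hx)⟩
  set S : Finset α := insert a (insert b (insert e (insert (t • e) D))) with hSdef
  have hSmem : ∀ x, x ∈ S ↔ x = a ∨ x = b ∨ x = e ∨ x = t • e ∨ x ∈ D := by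
    intro x; simp [hSdef]
  refine ⟨fun g => ⟨(g : G) • e, ?_⟩, ?_, ?_⟩
  · obtain ⟨g, hg, hga, hgb, hgD⟩ := g
    refine ⟨h.smul_notMem_F hg he.1, fun hx => he.2.1 ?_, fun hx => he.2.2 ?_⟩
    · exact MulAction.injective g (by show g • e = g • a; rw [hga]; exact hx)
    · exact MulAction.injective g (by show g • e = g • b; rw [hgb]; exact hx)
  · rintro ⟨g, hg, hga, hgb, hgD⟩ ⟨g', hg', hga', hgb', hgD'⟩ hgg
    simp only [Subtype.mk.injEq] at hgg
    apply Subtype.ext
    show g = g'
    have : g'⁻¹ * g = 1 := U S hScard.ge _ (fun s hs => by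
      rw [mul_smul, inv_smul_eq_iff]
      rcases (hSmem s).mp hs with rfl | rfl | rfl | rfl | hs
      · rw [hga, hga']
      · rw [hgb, hgb']
      · exact hgg
      · rw [smul_t_smul hg, smul_t_smul hg', hgg]
      · rw [hgD s hs, hgD' s hs])
    exact (inv_mul_eq_one.mp this).symm
  · rintro ⟨e', he'⟩
    have hte' := h.t_mem_XSet he'
    have htne' := h.t_ne_of_mem_XSet he'
    let φ : α → α := fun x => if x = e then e' else if x = t • e then t • e' else x
    have φe : φ e = e' := by simp [φ]
    have φte : φ (t • e) = t • e' := by simp [φ, htne]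
    have φo : ∀ x, x ≠ e → x ≠ t • e → φ x = x := fun x h1 h2 => by simp [φ, h1, h2]
    have φa : φ a = a := φo a he.2.1.symm hte.2.1.symm
    have φb : φ b = b := φo b he.2.2.symm hte.2.2.symm
    have φD : ∀ x ∈ D, φ x = x := fun x hx =>
      φo x (hne (hD hx) he.1) (hne (hD hx) hte.1)
    have hSt : ∀ s ∈ S, t • s ∈ S := by
      intro s hs
      rcases (hSmem s).mp hs with rfl | rfl | rfl | rfl | hs'
      · rw [h.ta, hSmem]; simp
      · rw [h.tb, hSmem]; simp
      · rw [hSmem]; simp
      · rw [h.smul_smul, hSmem]; simp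
      · rwa [(h.memF _).mp (hD hs')]
    have hinj : Set.InjOn φ S := by
      intro x hx y hy hxy
      rcases (hSmem x).mp hx with rfl | rfl | rfl | rfl | hx' <;>
      rcases (hSmem y).mp hy with rfl | rfl | rfl | rfl | hy' <;>
      first
        | rfl
        | (try simp only [φa, φb, φe, φte] at hxy
           first
            | exact absurd hxy hab
            | exact absurd hxy hab.symm
            | exact absurd hxy htne'
            | exact absurd hxy htne'.symm
            | exact absurd hxy he'.2.1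
            | exact absurd hxy he'.2.1.symm
            | exact absurd hxy he'.2.2
            | exact absurd hxy he'.2.2.symm
            | exact absurd hxy hte'.2.1
            | exact absurd hxy hte'.2.1.symm
            | exact absurd hxy hte'.2.2
            | exact absurd hxy hte'.2.2.symm
            | (rw [φD _ hx'] at hxy; first
                | exact absurd hxy (hne (hD hx') haF)
                | exact absurd hxy (hne (hD hx') hbF)
                | exact absurd hxy (hne (hD hx') he'.1)
                | exact absurd hxy (hne (hD hx') hte'.1)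
                | (rw [φD _ hy'] at hxy; exact hxy))
            | (rw [φD _ hy'] at hxy; first
                | exact absurd hxy.symm (hne (hD hy') haF)
                | exact absurd hxy.symm (hne (hD hy') hbF)
                | exact absurd hxy.symm (hne (hD hy') he'.1)
                | exact absurd hxy.symm (hne (hD hy') hte'.1)))
    have hφt : ∀ s ∈ S, φ (t • s) = t • φ s := by
      intro s hs
      rcases (hSmem s).mp hs with rfl | rfl | rfl | rfl | hs'
      · rw [h.ta, φb, φa, h.ta]
      · rw [h.tb, φb, φa, h.tb]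
      · rw [φe, φte]
      · rw [h.smul_smul, φe, φte, h.smul_smul]
      · rw [(h.memF _).mp (hD hs'), φD s hs', (h.memF _).mp (hD hs')]
    obtain ⟨g, hg, hgS⟩ := h.exists_commuting E U S hScard hSt φ hinj hφt
    refine ⟨⟨g, hg, ?_, ?_, ?_⟩, ?_⟩
    · rw [hgS a ((hSmem _).mpr (by simp)), φa]
    · rw [hgS b ((hSmem _).mpr (by simp)), φb]
    · intro x hx
      rw [hgS x ((hSmem _).mpr (by simp [hx])), φD x hx]
    · apply Subtype.ext
      show g • e = e'
      rw [hgS e ((hSmem _).mpr (by simp)), φe]

theorem exists_subset (h : Invol k t a b F) {j : ℕ} (hj : 2 ≤ j) (hk : j ≤ k) :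
    ∃ D : Finset α, D ⊆ F ∧ D.card + j = k := by
  have h1 := h.le
  obtain ⟨D, hD, hDc⟩ := Finset.exists_subset_card_eq (s := F) (n := k - j) (by omega)
  exact ⟨D, hD, by omega⟩

theorem finite_XSet (h : Invol k t a b F) (E : HasE G α k) (U : HasU G α k) (hk : 4 ≤ k)
    (hX : (XSet a b F).Nonempty) :
    (XSet a b F).Finite ∧ Nat.card (XSet a b F) = (F.card + 4 - k) * (F.card + 3 - k) := by
  classical
  obtain ⟨D, hD, hDc⟩ := h.exists_subset (j := 4) (by norm_num) hk
  obtain ⟨e, he⟩ := hX
  have hle := h.le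
  have hm : (F \ D).card = F.card + 4 - k := by
    rw [Finset.card_sdiff_of_subset hD]; omega
  obtain ⟨c, hc, d, hd, hcd⟩ := Finset.one_lt_card.mp (show 1 < (F \ D).card by omega)
  rw [Finset.mem_sdiff] at hc hd
  obtain ⟨f₁, hf₁⟩ := h.bijective_pair E U hD hDc hc.1 hd.1 hc.2 hd.2 hcd
  obtain ⟨f₂, hf₂⟩ := h.bijective_point E U hD hDc he
  have hset : {p : α × α | p.1 ∈ F ∧ p.2 ∈ F ∧ p.1 ∉ D ∧ p.2 ∉ D ∧ p.1 ≠ p.2} =
      ((F \ D).offDiag : Set (α × α)) := by
    ext p
    simp only [Set.mem_ofPred_eq, Finset.mem_coe, Finset.mem_offDiag, Finset.mem_sdiff]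
    tauto
  obtain ⟨e₁⟩ : Nonempty (XSet a b F ≃ ((F \ D).offDiag : Set (α × α))) := by
    rw [← hset]
    exact ⟨(Equiv.ofBijective f₂ hf₂).symm.trans (Equiv.ofBijective f₁ hf₁)⟩
  refine ⟨?_, ?_⟩
  · exact Finite.of_equiv _ e₁.symm
  · rw [Nat.card_congr e₁]
    simp only [Nat.card_eq_fintype_card, Fintype.card_coe, Finset.coe_sort_coe,
      Finset.offDiag_card, hm]
    have h3 : F.card + 4 - k = (F.card + 3 - k) + 1 := by omega
    rw [h3, Nat.mul_succ, Nat.add_sub_cancel]

/-- The count of permutations of a `5`-set against pairs of points outside `F ∪ {a, b}`. -/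
theorem false_of_six_le (h : Invol k t a b F) (E : HasE G α k) (U : HasU G α k) (hk : 6 ≤ k)
    (hF : F.card + 1 = k) (hfin : (XSet a b F).Finite) (hX : Nat.card (XSet a b F) = 6) :
    False := by
  classical
  have haF := h.a_notMem
  have hbF := h.b_notMem
  have hab := h.ne
  have hne : ∀ {x y : α}, x ∈ F → y ∉ F → x ≠ y := fun hx hy he => hy (he ▸ hx)
  obtain ⟨D, hD, hDc⟩ := h.exists_subset (j := 6) (by norm_num) hk
  have hm : (F \ D).card = 5 := by
    rw [Finset.card_sdiff_of_subset hD]; omega
  obtain ⟨z, hz⟩ := Finset.card_pos.mp (show 0 < (F \ D).card by omega)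
  have hz' := Finset.mem_sdiff.mp hz
  -- two points outside
  have hXc : hfin.toFinset.card = 6 := by
    rw [← hX, Nat.card_coe_set_eq, Set.ncard_eq_toFinset_card _ hfin]
  obtain ⟨e, he⟩ := Finset.card_pos.mp (show 0 < hfin.toFinset.card by omega)
  rw [Set.Finite.mem_toFinset] at he
  have hte := h.t_mem_XSet he
  have htne := h.t_ne_of_mem_XSet he
  obtain ⟨e₂, he₂, he₂'⟩ := Finset.exists_mem_notMem_of_card_lt_card
    (s := {e, t • e}) (t := hfin.toFinset) (lt_of_le_of_lt Finset.card_le_two (by omega))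
  rw [Set.Finite.mem_toFinset] at he₂
  simp only [Finset.mem_insert, Finset.mem_singleton, not_or] at he₂'
  obtain ⟨h21, h22⟩ := he₂'
  have hte₂ := h.t_mem_XSet he₂
  have htne₂ := h.t_ne_of_mem_XSet he₂
  have h23 : t • e₂ ≠ e := fun hc => h22 (by rw [← hc, h.smul_smul])
  have h24 : t • e₂ ≠ t • e := fun hc => h21 (MulAction.injective t hc)
  -- the permutations
  have key : ∀ σ : Equiv.Perm {x // x ∈ F \ D}, ∃ g : G, g * t = t * g ∧ g • a = a ∧ g • b = b ∧
      (∀ x ∈ D, g • x = x) ∧ ∀ x : {x // x ∈ F \ D}, (x : α) ≠ z → g • (x : α) = σ x := by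
    intro σ
    let φ : Equiv.Perm α := Equiv.Perm.ofSubtype σ
    have φin : ∀ x : {x // x ∈ F \ D}, φ x = σ x := fun x => Equiv.Perm.ofSubtype_apply_coe σ x
    have φout : ∀ x, x ∉ F \ D → φ x = x := fun x hx =>
      Equiv.Perm.ofSubtype_apply_of_not_mem σ hx
    have haFD : a ∉ F \ D := fun hx => haF (Finset.mem_sdiff.mp hx).1
    have hbFD : b ∉ F \ D := fun hx => hbF (Finset.mem_sdiff.mp hx).1
    have φF : ∀ x ∈ F, φ x ∈ F := by
      intro x hx
      by_cases hx' : x ∈ F \ D
      · have := (σ ⟨x, hx'⟩).2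
        rw [← φin ⟨x, hx'⟩] at this
        exact (Finset.mem_sdiff.mp this).1
      · rwa [φout x hx']
    have hScard : (insert a (insert b (F.erase z))).card = k := by
      rw [Finset.card_insert_of_notMem, Finset.card_insert_of_notMem,
        Finset.card_erase_of_mem hz'.1]
      · omega
      · exact fun hx => hbF (Finset.mem_of_mem_erase hx)
      · simp only [Finset.mem_insert, not_or]
        exact ⟨hab, fun hx => haF (Finset.mem_of_mem_erase hx)⟩
    set S : Finset α := insert a (insert b (F.erase z)) with hSdef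
    have hSmem : ∀ x, x ∈ S ↔ x = a ∨ x = b ∨ (x ≠ z ∧ x ∈ F) := by
      intro x; simp [hSdef]
    have hSt : ∀ s ∈ S, t • s ∈ S := by
      intro s hs
      rcases (hSmem s).mp hs with rfl | rfl | ⟨hs1, hs2⟩
      · rw [h.ta, hSmem]; simp
      · rw [h.tb, hSmem]; simp
      · rwa [(h.memF _).mp hs2]
    have hφt : ∀ s ∈ S, φ (t • s) = t • φ s := by
      intro s hs
      rcases (hSmem s).mp hs with rfl | rfl | ⟨hs1, hs2⟩
      · rw [h.ta, φout _ hbFD, φout _ haFD, h.ta]
      · rw [h.tb, φout _ hbFD, φout _ haFD, h.tb]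
      · rw [(h.memF _).mp hs2, (h.memF _).mp (φF s hs2)]
    obtain ⟨g, hg, hgS⟩ := h.exists_commuting E U S hScard hSt φ φ.injective.injOn hφt
    refine ⟨g, hg, ?_, ?_, ?_, ?_⟩
    · rw [hgS a ((hSmem _).mpr (by simp)), φout a haFD]
    · rw [hgS b ((hSmem _).mpr (by simp)), φout b hbFD]
    · intro x hx
      have hxz : x ≠ z := fun hc => hz'.2 (hc ▸ hx)
      rw [hgS x ((hSmem _).mpr (Or.inr (Or.inr ⟨hxz, hD hx⟩))), φout x
        (fun hc => (Finset.mem_sdiff.mp hc).2 hx)]
    · intro x hx
      rw [hgS x ((hSmem _).mpr (Or.inr (Or.inr ⟨hx, (Finset.mem_sdiff.mp x.2).1⟩))), φin x]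
  choose γ hγt hγa hγb hγD hγ using key
  have hmemX : ∀ σ, ∀ x ∈ XSet a b F, γ σ • x ∈ XSet a b F := by
    intro σ x hx
    refine ⟨h.smul_notMem_F (hγt σ) hx.1, fun hc => hx.2.1 ?_, fun hc => hx.2.2 ?_⟩
    · exact MulAction.injective (γ σ) (by show γ σ • x = γ σ • a; rw [hγa]; exact hc)
    · exact MulAction.injective (γ σ) (by show γ σ • x = γ σ • b; rw [hγb]; exact hc)
  let f : Equiv.Perm {x // x ∈ F \ D} → hfin.toFinset ×ˢ hfin.toFinset := fun σ =>
    ⟨(γ σ • e, γ σ • e₂), by
      rw [Finset.mem_product, Set.Finite.mem_toFinset, Set.Finite.mem_toFinset]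
      exact ⟨hmemX σ e he, hmemX σ e₂ he₂⟩⟩
  have hf : Function.Injective f := by
    intro σ τ hστ
    have h1 : (γ σ • e, γ σ • e₂) = (γ τ • e, γ τ • e₂) := congrArg Subtype.val hστ
    rw [Prod.mk.injEq] at h1
    have hScard : (insert a (insert b (insert e (insert (t • e) (insert e₂
        (insert (t • e₂) D)))))).card = k := by
      rw [Finset.card_insert_of_notMem, Finset.card_insert_of_notMem,
        Finset.card_insert_of_notMem, Finset.card_insert_of_notMem,
        Finset.card_insert_of_notMem, Finset.card_insert_of_notMem]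
      · omega
      · exact fun hx => hte₂.1 (hD hx)
      · simp only [Finset.mem_insert, not_or]
        exact ⟨htne₂.symm, fun hx => he₂.1 (hD hx)⟩
      · simp only [Finset.mem_insert, not_or]
        exact ⟨Ne.symm h22, h24.symm, fun hx => hte.1 (hD hx)⟩
      · simp only [Finset.mem_insert, not_or]
        exact ⟨htne.symm, Ne.symm h21, h23.symm, fun hx => he.1 (hD hx)⟩
      · simp only [Finset.mem_insert, not_or]
        exact ⟨he.2.2.symm, hte.2.2.symm, he₂.2.2.symm, hte₂.2.2.symm, fun hx => hbF (hD hx)⟩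
      · simp only [Finset.mem_insert, not_or]
        exact ⟨hab, he.2.1.symm, hte.2.1.symm, he₂.2.1.symm, hte₂.2.1.symm,
          fun hx => haF (hD hx)⟩
    have h2 : (γ τ)⁻¹ * γ σ = 1 := by
      apply U _ hScard.ge
      intro s hs
      rw [mul_smul, inv_smul_eq_iff]
      simp only [Finset.mem_insert] at hs
      rcases hs with rfl | rfl | rfl | rfl | rfl | rfl | hs
      · rw [hγa, hγa]
      · rw [hγb, hγb]
      · exact h1.1
      · rw [smul_t_smul (hγt σ), smul_t_smul (hγt τ), h1.1]
      · exact h1.2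
      · rw [smul_t_smul (hγt σ), smul_t_smul (hγt τ), h1.2]
      · rw [hγD σ s hs, hγD τ s hs]
    have h3 : γ σ = γ τ := (inv_mul_eq_one.mp h2).symm
    have h4 : ∀ x : {x // x ∈ F \ D}, (x : α) ≠ z → σ x = τ x := by
      intro x hx
      apply Subtype.ext
      rw [← hγ σ x hx, ← hγ τ x hx, h3]
    have h5 : ∀ x : {x // x ∈ F \ D}, (x : α) ≠ z → (τ⁻¹ * σ) x = x := by
      intro x hx
      rw [Equiv.Perm.mul_apply, h4 x hx]
      exact τ.symm_apply_apply x
    have h6 : τ⁻¹ * σ = 1 := by
      ext x
      by_cases hx : (x : α) = z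
      · by_contra hcon
        have h7 : ((τ⁻¹ * σ) x : α) ≠ z := by rw [← hx]; exact hcon
        have h8 := h5 _ h7
        exact hcon (congrArg Subtype.val ((τ⁻¹ * σ).injective h8))
      · rw [h5 x hx]; rfl
    exact (inv_mul_eq_one.mp h6).symm
  have h9 := Fintype.card_le_of_injective f hf
  rw [Fintype.card_perm, Fintype.card_coe, Fintype.card_coe, Finset.card_product, hm, hXc] at h9
  revert h9
  decide

end Invol

/-- **Jordan, Tits**: the degree of a sharply `k`-transitive group, `k ≥ 4`. -/
theorem card_eq_of_hasE_hasU (hk : 4 ≤ k) (E : HasE G α k) (U : HasU G α k)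
    (T : Finset α) (hT : T.card = k) :
    Finite α ∧ (Nat.card α = k ∨ Nat.card α = k + 1 ∨ Nat.card α = k + 2 ∨
      (k ≤ 5 ∧ Nat.card α = k + 7)) := by
  classical
  obtain ⟨t, a, b, F, h⟩ := exists_invol (by omega) E U T hT
  have hle := h.le
  have hlt := h.lt
  have haF := h.a_notMem
  have hbF := h.b_notMem
  have hab := h.ne
  by_cases hX : (Invol.XSet a b F).Nonempty
  · obtain ⟨hfin, hcard⟩ := h.finite_XSet E U hk hX
    have hXc : hfin.toFinset.card = (F.card + 4 - k) * (F.card + 3 - k) := by
      rw [← hcard, Nat.card_coe_set_eq, Set.ncard_eq_toFinset_card _ hfin]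
    have hall : ∀ x : α, x ∈ insert a (insert b (F ∪ hfin.toFinset)) := by
      intro x
      simp only [Finset.mem_insert, Finset.mem_union, Set.Finite.mem_toFinset, Invol.XSet]
      by_cases h1 : x = a
      · simp [h1]
      by_cases h2 : x = b
      · simp [h2]
      by_cases h3 : x ∈ F
      · simp [h3]
      · exact Or.inr (Or.inr (Or.inr ⟨h3, h1, h2⟩))
    have hcardα : (insert a (insert b (F ∪ hfin.toFinset))).card =
        F.card + 2 + (F.card + 4 - k) * (F.card + 3 - k) := by
      rw [Finset.card_insert_of_notMem, Finset.card_insert_of_notMem,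
        Finset.card_union_of_disjoint, hXc]
      · ring
      · rw [Finset.disjoint_left]
        intro x hx hx'
        rw [Set.Finite.mem_toFinset] at hx'
        exact hx'.1 hx
      · simp only [Finset.mem_union, Set.Finite.mem_toFinset, not_or]
        exact ⟨hbF, fun hx => hx.2.2 rfl⟩
      · simp only [Finset.mem_insert, Finset.mem_union, Set.Finite.mem_toFinset, not_or]
        exact ⟨hab, haF, fun hx => hx.2.1 rfl⟩
    let _ : Fintype α := ⟨_, hall⟩
    have hN : Nat.card α = F.card + 2 + (F.card + 4 - k) * (F.card + 3 - k) := by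
      rw [← hcardα, Nat.card_eq_fintype_card]
      rfl
    refine ⟨inferInstance, ?_⟩
    have hF : F.card + 2 = k ∨ F.card + 1 = k := by omega
    rcases hF with hF | hF
    · right; right; left
      rw [hN, show F.card + 4 - k = 2 by omega, show F.card + 3 - k = 1 by omega]
      omega
    · right; right; right
      rw [show F.card + 4 - k = 3 by omega, show F.card + 3 - k = 2 by omega] at hN hcard
      refine ⟨?_, by omega⟩
      by_contra hk6
      exact h.false_of_six_le E U (by omega) hF hfin (by rw [hcard])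
  · have hall : ∀ x : α, x ∈ insert a (insert b F) := by
      intro x
      simp only [Finset.mem_insert]
      by_contra hcon
      simp only [not_or] at hcon
      exact hX ⟨x, hcon.2.2, hcon.1, hcon.2.1⟩
    have hcardα : (insert a (insert b F)).card = F.card + 2 := by
      rw [Finset.card_insert_of_notMem, Finset.card_insert_of_notMem hbF]
      simp only [Finset.mem_insert, not_or]
      exact ⟨hab, haF⟩
    let _ : Fintype α := ⟨_, hall⟩
    have hN : Nat.card α = F.card + 2 := by
      rw [← hcardα, Nat.card_eq_fintype_card]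
      rfl
    refine ⟨inferInstance, ?_⟩
    omega

/-- **Jordan, Tits**: the degree of a sharply `k`-transitive group, `k ≥ 4`. -/
theorem card_eq_of_sharply (hk : 4 ≤ k) [IsMultiplyPretransitive G α k]
    (hsharp : ∀ x : Fin k ↪ α, stabilizer G x = ⊥) (hne : Nonempty (Fin k ↪ α)) :
    Finite α ∧ (Nat.card α = k ∨ Nat.card α = k + 1 ∨ Nat.card α = k + 2 ∨
      (k ≤ 5 ∧ Nat.card α = k + 7)) := by
  classical
  obtain ⟨x⟩ := hne
  exact card_eq_of_hasE_hasU hk (hasE_of_isMultiplyPretransitive (G := G))
    (hasU_of_stabilizer_eq_bot hsharp) (Finset.univ.map x) (by simp)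

end Cfsg.Agent.SporadicA.SharplyK
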