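import Cfsg.Agent.SporadicA.PermTab
import Cfsg.Agent.SporadicA.SuzData_mg
import Cfsg.Agent.SporadicA.PermRank3
set_option linter.all false

-- part: SporadicA/PermTabRow
section
set_option autoImplicit false

/-!
Upper bounds for automorphism groups of graphs given as bit matrices, row version: the adjacency
patterns are read off the rows of the base points only, which keeps kernel checks small for
graphs with thousands of vertices (compare `PermTab.chainB`, `PermTab.chkDist`).
-/

namespace Cfsg.Agent.SporadicA.PermTabRow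

open Equiv Cfsg.Agent.SporadicA.PermTab

noncomputable section

/-- bit `v` of the row `R`, as `0` or `1` -/
def bitR (R v : ℕ) : ℕ := Nat.land (Nat.shiftRight R v) 1

theorem bitR_rowM (n A f v : ℕ) (hv : v < n) : bitR (rowM n A f) v = bitM n A f v := by
  rw [bitM_eq]
  change ((rowM n A f) >>> v) &&& 1 = _
  rw [Nat.and_one_is_mod, Nat.shiftRight_eq_div_pow, ← Nat.toNat_testBit, testBit_rowM,
    decide_eq_true hv, Bool.and_true]

/-- `v` is none of the points of `F`, and the points of `F` are joined to `v` as to `y`. -/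
def pattR (n A : ℕ) (F : List ℕ) (y v : ℕ) : Bool :=
  List.rec true (fun f _ ih => band (Nat.beq (bitR (rowM n A f) v) (bitR (rowM n A f) y))
    (band (nbeq v f) ih)) F

theorem pattR_iff (n A : ℕ) (F : List ℕ) (y v : ℕ) : pattR n A F y v = true ↔
    ∀ f ∈ F, bitR (rowM n A f) v = bitR (rowM n A f) y ∧ v ≠ f := by
  induction F with
  | nil => simp [pattR]
  | cons f F ih =>
    have : pattR n A (f :: F) y v = band (Nat.beq (bitR (rowM n A f) v) (bitR (rowM n A f) y))
        (band (nbeq v f) (pattR n A F y v)) := rfl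
    rw [this, band_eq_true, band_eq_true, ih, nbeq_iff]
    constructor
    · rintro ⟨h1, h2, h3⟩ k hk
      rcases List.mem_cons.1 hk with h | h
      · subst h; exact ⟨Nat.eq_of_beq_eq_true h1, h2⟩
      · exact h3 k h
    · intro h
      refine ⟨?_, (h f List.mem_cons_self).2, fun k hk => h k (List.mem_cons_of_mem _ hk)⟩
      rw [(h f List.mem_cons_self).1]
      exact Nat.beq_refl _

/-- One link of the chain. -/
def linkR (n A : ℕ) (F : List ℕ) (y m : ℕ) : Bool :=
  band (Nat.blt y n) (band (notMemB y F) (cntB (pattR n A F y) n m))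

/-- The chain of adjacency patterns, as a proposition, so that the links can be checked one by
one. -/
def ChainR (n A : ℕ) : List ℕ → List (ℕ × ℕ) → Prop
  | _, [] => True
  | F, (y, m) :: bs => linkR n A F y m = true ∧ ChainR n A (y :: F) bs

/-- The chain as one Boolean. -/
def chainRB (n A : ℕ) : List ℕ → List (ℕ × ℕ) → Bool
  | _, [] => true
  | F, (y, m) :: bs => band (linkR n A F y m) (chainRB n A (y :: F) bs)

theorem chainR_of_chainRB {n A : ℕ} (bs : List (ℕ × ℕ)) (F : List ℕ)
    (h : chainRB n A F bs = true) : ChainR n A F bs := by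
  induction bs generalizing F with
  | nil => trivial
  | cons b bs ih =>
    obtain ⟨y, m⟩ := b
    have h' : band (linkR n A F y m) (chainRB n A (y :: F) bs) = true := h
    rw [band_eq_true] at h'
    exact ⟨h'.1, ih _ h'.2⟩

theorem card_le_of_chainR {n A : ℕ} (bs : List (ℕ × ℕ)) (F : List ℕ)
    (H : Subgroup (Perm (Fin n))) (hH : H ≤ autG n A) (hF : FixL H F)
    (hc : ChainR n A F bs)
    (hfin : ∀ g ∈ autG n A, (∀ f ∈ lastF F bs, f < n ∧ ∀ i : Fin n, (i : ℕ) = f → g i = i) →
      g = 1) : Nat.card H ≤ prodC bs := by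
  induction bs generalizing F H with
  | nil =>
    have : H = ⊥ := by
      rw [eq_bot_iff]
      intro g hg
      rw [Subgroup.mem_bot]
      exact hfin g (hH hg) (fun f hf => ⟨(hF f hf).1, (hF f hf).2 g hg⟩)
    rw [this]
    simp [prodC]
  | cons b bs ih =>
    obtain ⟨y, m⟩ := b
    obtain ⟨h0, h4⟩ := hc
    rw [linkR, band_eq_true, band_eq_true] at h0
    obtain ⟨h1, h2, h3⟩ := h0
    have hy : y < n := Nat.blt_eq ▸ h1
    rw [notMemB_iff] at h2
    have h5 : Nat.card (ps H ⟨y, hy⟩) ≤ prodC bs := by
      refine ih (y :: F) (ps H ⟨y, hy⟩) ((ps_le _ _).trans hH) ?_ h4 hfin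
      intro f hf
      rcases List.mem_cons.1 hf with h | h
      · subst h
        refine ⟨hy, fun g hg i hi => ?_⟩
        have : i = ⟨f, hy⟩ := Fin.ext hi
        rw [this]; exact hg.2
      · exact ⟨(hF f h).1, fun g hg => (hF f h).2 g hg.1⟩
    refine card_le H ⟨y, hy⟩ _ ?_ (card_fin_of_cntB _ n m h3) h5
    intro g hg
    simp only [Finset.mem_filter, Finset.mem_univ, true_and]
    rw [pattR_iff]
    intro f hf
    obtain ⟨hfn, hfix⟩ := hF f hf
    have hgf : g ⟨f, hfn⟩ = ⟨f, hfn⟩ := hfix g hg ⟨f, hfn⟩ rfl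
    constructor
    · have := hH hg ⟨f, hfn⟩ ⟨y, hy⟩
      rw [hgf] at this
      rw [bitR_rowM _ _ _ _ (g ⟨y, hy⟩).2, bitR_rowM _ _ _ _ hy]
      exact this
    · intro he
      have h6 : g ⟨y, hy⟩ = g ⟨f, hfn⟩ := by
        rw [hgf]; exact Fin.ext he
      have h7 := g.injective h6
      rw [Fin.mk.injEq] at h7
      exact h2 (h7 ▸ hf)

/-- The adjacencies of `v` to the points of `F`, packed into a number. -/
def sigL (n A : ℕ) (F : List ℕ) (v : ℕ) : ℕ :=
  List.rec 0 (fun f _ ih => Nat.add (Nat.mul 2 ih) (bitR (rowM n A f) v)) F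

theorem sigL_congr {n A : ℕ} {F : List ℕ} {v w : ℕ}
    (h : ∀ f ∈ F, bitR (rowM n A f) v = bitR (rowM n A f) w) :
    sigL n A F v = sigL n A F w := by
  induction F with
  | nil => rfl
  | cons f F ih =>
    have h1 : ∀ v, sigL n A (f :: F) v =
      Nat.add (Nat.mul 2 (sigL n A F v)) (bitR (rowM n A f) v) := fun _ => rfl
    rw [h1, h1, h f List.mem_cons_self, ih (fun k hk => h k (List.mem_cons_of_mem _ hk))]

/-- The signatures are pairwise different; `O` lists the vertices in increasing order of
their signatures and `R` is the inverse of `O`. -/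
def chkDistR (n A : ℕ) (F : List ℕ) (R O : ℕ) : Bool :=
  band (allB (fun v => band (Nat.blt (lk R v) n) (Nat.beq (lk O (lk R v)) v)) n)
    (allB (fun i => Nat.blt (sigL n A F (lk O i)) (sigL n A F (lk O (Nat.succ i)))) (Nat.pred n))

theorem eq_one_of_distR {n A R O : ℕ} {F : List ℕ} (hd : chkDistR n A F R O = true)
    (g : Perm (Fin n)) (hg : g ∈ autG n A)
    (hF : ∀ f ∈ F, f < n ∧ ∀ i : Fin n, (i : ℕ) = f → g i = i) : g = 1 := by
  unfold chkDistR at hd
  rw [band_eq_true, allB_iff, allB_iff] at hd
  obtain ⟨hR, hO⟩ := hd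
  set sig : ℕ → ℕ := sigL n A F with hsig
  have hmono : ∀ i j, i < j → j < n → sig (lk O i) < sig (lk O j) := by
    intro i j hij
    induction j with
    | zero => exact absurd hij (Nat.not_lt_zero _)
    | succ j ih =>
      intro hj
      have hstep : sig (lk O j) < sig (lk O (j + 1)) :=
        Nat.blt_eq ▸ hO j (by rw [Nat.pred_eq_sub_one]; omega)
      rcases Nat.lt_succ_iff_lt_or_eq.1 hij with h | h
      · exact (ih h (by omega)).trans hstep
      · subst h; exact hstep
  have hinj : ∀ v < n, ∀ w < n, sig v = sig w → v = w := by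
    intro v hv w hw hvw
    have h1 := hR v hv
    have h2 := hR w hw
    rw [band_eq_true] at h1 h2
    have h3 : lk R v < n := Nat.blt_eq ▸ h1.1
    have h4 : lk R w < n := Nat.blt_eq ▸ h2.1
    have h5 := Nat.eq_of_beq_eq_true h1.2
    have h6 := Nat.eq_of_beq_eq_true h2.2
    rcases Nat.lt_trichotomy (lk R v) (lk R w) with h | h | h
    · have := hmono _ _ h h4
      rw [h5, h6] at this
      omega
    · rw [← h5, ← h6, h]
    · have := hmono _ _ h h3
      rw [h5, h6] at this
      omega
  ext v
  rw [Perm.one_apply]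
  refine hinj _ (g v).2 _ v.2 (sigL_congr fun f hf => ?_)
  obtain ⟨hfn, hfix⟩ := hF f hf
  have h1 := hg ⟨f, hfn⟩ v
  rw [hfix ⟨f, hfn⟩ rfl] at h1
  rw [bitR_rowM _ _ _ _ (g v).2, bitR_rowM _ _ _ _ v.2]
  exact h1

/-- Upper bound for the automorphism group of the graph. -/
theorem card_autG_leR {n A R O : ℕ} {bs : List (ℕ × ℕ)} (hc : ChainR n A [] bs)
    (hd : chkDistR n A (lastF [] bs) R O = true) : Nat.card (autG n A) ≤ prodC bs :=
  card_le_of_chainR bs [] (autG n A) le_rfl (fun _ hf => absurd hf List.not_mem_nil) hc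
    (fun g hg h => eq_one_of_distR hd g hg h)

end

end Cfsg.Agent.SporadicA.PermTabRow
end

-- part: SporadicA/SuzUpper
section
set_option autoImplicit false
set_option Elab.async false

/-!
Upper bound for the order of the automorphism group of the Suzuki graph on 1782 vertices.
-/

namespace Cfsg.Agent.SporadicA.SuzUpper

open Equiv Cfsg.Agent.SporadicA.PermTab Cfsg.Agent.SporadicA.PermTabRow
open Cfsg.Agent.SporadicA.SuzData Cfsg.Agent.SporadicA.SuzAdj

theorem chain_ok : chainRB 1782 adj [] base = true := by decide +kernel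

theorem dist_ok : chkDistR 1782 adj (lastF [] base) rk od = true := by decide +kernel

theorem card_aut_le : Nat.card (autG 1782 adj) ≤ 896690995200 := by
  have h := card_autG_leR (chainR_of_chainRB _ _ chain_ok) dist_ok
  have h2 : prodC base = 896690995200 := by decide +kernel
  rwa [h2] at h

end Cfsg.Agent.SporadicA.SuzUpper
end

-- part: SporadicA/SuzAutA
section
set_option autoImplicit false
set_option Elab.async false

/-!
The table `tA` is an automorphism of the Suzuki graph: kernel check, 64 rows at a time.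
-/

namespace Cfsg.Agent.SporadicA.SuzAutA

open Cfsg.Agent.SporadicA.PermTab Cfsg.Agent.SporadicA.SuzData Cfsg.Agent.SporadicA.SuzAdj

theorem inv : chkInv 1782 tA tA = true := by decide +kernel

theorem k0 : chkAutBlk 1782 adj tA 0 64 = true := by decide +kernel
theorem k1 : chkAutBlk 1782 adj tA 64 64 = true := by decide +kernel
theorem k2 : chkAutBlk 1782 adj tA 128 64 = true := by decide +kernel
theorem k3 : chkAutBlk 1782 adj tA 192 64 = true := by decide +kernel
theorem k4 : chkAutBlk 1782 adj tA 256 64 = true := by decide +kernel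
theorem k5 : chkAutBlk 1782 adj tA 320 64 = true := by decide +kernel
theorem k6 : chkAutBlk 1782 adj tA 384 64 = true := by decide +kernel
theorem k7 : chkAutBlk 1782 adj tA 448 64 = true := by decide +kernel
theorem k8 : chkAutBlk 1782 adj tA 512 64 = true := by decide +kernel
theorem k9 : chkAutBlk 1782 adj tA 576 64 = true := by decide +kernel
theorem k10 : chkAutBlk 1782 adj tA 640 64 = true := by decide +kernel
theorem k11 : chkAutBlk 1782 adj tA 704 64 = true := by decide +kernel
theorem k12 : chkAutBlk 1782 adj tA 768 64 = true := by decide +kernel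
theorem k13 : chkAutBlk 1782 adj tA 832 64 = true := by decide +kernel
theorem k14 : chkAutBlk 1782 adj tA 896 64 = true := by decide +kernel
theorem k15 : chkAutBlk 1782 adj tA 960 64 = true := by decide +kernel
theorem k16 : chkAutBlk 1782 adj tA 1024 64 = true := by decide +kernel
theorem k17 : chkAutBlk 1782 adj tA 1088 64 = true := by decide +kernel
theorem k18 : chkAutBlk 1782 adj tA 1152 64 = true := by decide +kernel
theorem k19 : chkAutBlk 1782 adj tA 1216 64 = true := by decide +kernel
theorem k20 : chkAutBlk 1782 adj tA 1280 64 = true := by decide +kernel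
theorem k21 : chkAutBlk 1782 adj tA 1344 64 = true := by decide +kernel
theorem k22 : chkAutBlk 1782 adj tA 1408 64 = true := by decide +kernel
theorem k23 : chkAutBlk 1782 adj tA 1472 64 = true := by decide +kernel
theorem k24 : chkAutBlk 1782 adj tA 1536 64 = true := by decide +kernel
theorem k25 : chkAutBlk 1782 adj tA 1600 64 = true := by decide +kernel
theorem k26 : chkAutBlk 1782 adj tA 1664 64 = true := by decide +kernel
theorem k27 : chkAutBlk 1782 adj tA 1728 54 = true := by decide +kernel

theorem blk {i0 l : ℕ} (h : chkAutBlk 1782 adj tA i0 l = true) : RowsOK 1782 adj tA i0 l :=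
  rowsOK_of_chk (chkInv_lt inv) (chkInv_inj inv) h

theorem r0 : RowsOK 1782 adj tA 0 64 := blk k0
theorem r1 : RowsOK 1782 adj tA 0 128 := r0.append (l' := 64) (blk k1)
theorem r2 : RowsOK 1782 adj tA 0 192 := r1.append (l' := 64) (blk k2)
theorem r3 : RowsOK 1782 adj tA 0 256 := r2.append (l' := 64) (blk k3)
theorem r4 : RowsOK 1782 adj tA 0 320 := r3.append (l' := 64) (blk k4)
theorem r5 : RowsOK 1782 adj tA 0 384 := r4.append (l' := 64) (blk k5)
theorem r6 : RowsOK 1782 adj tA 0 448 := r5.append (l' := 64) (blk k6)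
theorem r7 : RowsOK 1782 adj tA 0 512 := r6.append (l' := 64) (blk k7)
theorem r8 : RowsOK 1782 adj tA 0 576 := r7.append (l' := 64) (blk k8)
theorem r9 : RowsOK 1782 adj tA 0 640 := r8.append (l' := 64) (blk k9)
theorem r10 : RowsOK 1782 adj tA 0 704 := r9.append (l' := 64) (blk k10)
theorem r11 : RowsOK 1782 adj tA 0 768 := r10.append (l' := 64) (blk k11)
theorem r12 : RowsOK 1782 adj tA 0 832 := r11.append (l' := 64) (blk k12)
theorem r13 : RowsOK 1782 adj tA 0 896 := r12.append (l' := 64) (blk k13)
theorem r14 : RowsOK 1782 adj tA 0 960 := r13.append (l' := 64) (blk k14)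
theorem r15 : RowsOK 1782 adj tA 0 1024 := r14.append (l' := 64) (blk k15)
theorem r16 : RowsOK 1782 adj tA 0 1088 := r15.append (l' := 64) (blk k16)
theorem r17 : RowsOK 1782 adj tA 0 1152 := r16.append (l' := 64) (blk k17)
theorem r18 : RowsOK 1782 adj tA 0 1216 := r17.append (l' := 64) (blk k18)
theorem r19 : RowsOK 1782 adj tA 0 1280 := r18.append (l' := 64) (blk k19)
theorem r20 : RowsOK 1782 adj tA 0 1344 := r19.append (l' := 64) (blk k20)
theorem r21 : RowsOK 1782 adj tA 0 1408 := r20.append (l' := 64) (blk k21)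
theorem r22 : RowsOK 1782 adj tA 0 1472 := r21.append (l' := 64) (blk k22)
theorem r23 : RowsOK 1782 adj tA 0 1536 := r22.append (l' := 64) (blk k23)
theorem r24 : RowsOK 1782 adj tA 0 1600 := r23.append (l' := 64) (blk k24)
theorem r25 : RowsOK 1782 adj tA 0 1664 := r24.append (l' := 64) (blk k25)
theorem r26 : RowsOK 1782 adj tA 0 1728 := r25.append (l' := 64) (blk k26)
theorem r27 : RowsOK 1782 adj tA 0 1782 := r26.append (l' := 54) (blk k27)

theorem rows : RowsOK 1782 adj tA 0 1782 := r27

end Cfsg.Agent.SporadicA.SuzAutA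
end

-- part: SporadicA/SuzAutB
section
set_option autoImplicit false
set_option Elab.async false

/-!
The table `tB` is an automorphism of the Suzuki graph: kernel check, 64 rows at a time.
-/

namespace Cfsg.Agent.SporadicA.SuzAutB

open Cfsg.Agent.SporadicA.PermTab Cfsg.Agent.SporadicA.SuzData Cfsg.Agent.SporadicA.SuzAdj

theorem inv : chkInv 1782 tB tB = true := by decide +kernel

theorem k0 : chkAutBlk 1782 adj tB 0 64 = true := by decide +kernel
theorem k1 : chkAutBlk 1782 adj tB 64 64 = true := by decide +kernel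
theorem k2 : chkAutBlk 1782 adj tB 128 64 = true := by decide +kernel
theorem k3 : chkAutBlk 1782 adj tB 192 64 = true := by decide +kernel
theorem k4 : chkAutBlk 1782 adj tB 256 64 = true := by decide +kernel
theorem k5 : chkAutBlk 1782 adj tB 320 64 = true := by decide +kernel
theorem k6 : chkAutBlk 1782 adj tB 384 64 = true := by decide +kernel
theorem k7 : chkAutBlk 1782 adj tB 448 64 = true := by decide +kernel
theorem k8 : chkAutBlk 1782 adj tB 512 64 = true := by decide +kernel
theorem k9 : chkAutBlk 1782 adj tB 576 64 = true := by decide +kernel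
theorem k10 : chkAutBlk 1782 adj tB 640 64 = true := by decide +kernel
theorem k11 : chkAutBlk 1782 adj tB 704 64 = true := by decide +kernel
theorem k12 : chkAutBlk 1782 adj tB 768 64 = true := by decide +kernel
theorem k13 : chkAutBlk 1782 adj tB 832 64 = true := by decide +kernel
theorem k14 : chkAutBlk 1782 adj tB 896 64 = true := by decide +kernel
theorem k15 : chkAutBlk 1782 adj tB 960 64 = true := by decide +kernel
theorem k16 : chkAutBlk 1782 adj tB 1024 64 = true := by decide +kernel
theorem k17 : chkAutBlk 1782 adj tB 1088 64 = true := by decide +kernel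
theorem k18 : chkAutBlk 1782 adj tB 1152 64 = true := by decide +kernel
theorem k19 : chkAutBlk 1782 adj tB 1216 64 = true := by decide +kernel
theorem k20 : chkAutBlk 1782 adj tB 1280 64 = true := by decide +kernel
theorem k21 : chkAutBlk 1782 adj tB 1344 64 = true := by decide +kernel
theorem k22 : chkAutBlk 1782 adj tB 1408 64 = true := by decide +kernel
theorem k23 : chkAutBlk 1782 adj tB 1472 64 = true := by decide +kernel
theorem k24 : chkAutBlk 1782 adj tB 1536 64 = true := by decide +kernel
theorem k25 : chkAutBlk 1782 adj tB 1600 64 = true := by decide +kernel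
theorem k26 : chkAutBlk 1782 adj tB 1664 64 = true := by decide +kernel
theorem k27 : chkAutBlk 1782 adj tB 1728 54 = true := by decide +kernel

theorem blk {i0 l : ℕ} (h : chkAutBlk 1782 adj tB i0 l = true) : RowsOK 1782 adj tB i0 l :=
  rowsOK_of_chk (chkInv_lt inv) (chkInv_inj inv) h

theorem r0 : RowsOK 1782 adj tB 0 64 := blk k0
theorem r1 : RowsOK 1782 adj tB 0 128 := r0.append (l' := 64) (blk k1)
theorem r2 : RowsOK 1782 adj tB 0 192 := r1.append (l' := 64) (blk k2)
theorem r3 : RowsOK 1782 adj tB 0 256 := r2.append (l' := 64) (blk k3)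
theorem r4 : RowsOK 1782 adj tB 0 320 := r3.append (l' := 64) (blk k4)
theorem r5 : RowsOK 1782 adj tB 0 384 := r4.append (l' := 64) (blk k5)
theorem r6 : RowsOK 1782 adj tB 0 448 := r5.append (l' := 64) (blk k6)
theorem r7 : RowsOK 1782 adj tB 0 512 := r6.append (l' := 64) (blk k7)
theorem r8 : RowsOK 1782 adj tB 0 576 := r7.append (l' := 64) (blk k8)
theorem r9 : RowsOK 1782 adj tB 0 640 := r8.append (l' := 64) (blk k9)
theorem r10 : RowsOK 1782 adj tB 0 704 := r9.append (l' := 64) (blk k10)
theorem r11 : RowsOK 1782 adj tB 0 768 := r10.append (l' := 64) (blk k11)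
theorem r12 : RowsOK 1782 adj tB 0 832 := r11.append (l' := 64) (blk k12)
theorem r13 : RowsOK 1782 adj tB 0 896 := r12.append (l' := 64) (blk k13)
theorem r14 : RowsOK 1782 adj tB 0 960 := r13.append (l' := 64) (blk k14)
theorem r15 : RowsOK 1782 adj tB 0 1024 := r14.append (l' := 64) (blk k15)
theorem r16 : RowsOK 1782 adj tB 0 1088 := r15.append (l' := 64) (blk k16)
theorem r17 : RowsOK 1782 adj tB 0 1152 := r16.append (l' := 64) (blk k17)
theorem r18 : RowsOK 1782 adj tB 0 1216 := r17.append (l' := 64) (blk k18)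
theorem r19 : RowsOK 1782 adj tB 0 1280 := r18.append (l' := 64) (blk k19)
theorem r20 : RowsOK 1782 adj tB 0 1344 := r19.append (l' := 64) (blk k20)
theorem r21 : RowsOK 1782 adj tB 0 1408 := r20.append (l' := 64) (blk k21)
theorem r22 : RowsOK 1782 adj tB 0 1472 := r21.append (l' := 64) (blk k22)
theorem r23 : RowsOK 1782 adj tB 0 1536 := r22.append (l' := 64) (blk k23)
theorem r24 : RowsOK 1782 adj tB 0 1600 := r23.append (l' := 64) (blk k24)
theorem r25 : RowsOK 1782 adj tB 0 1664 := r24.append (l' := 64) (blk k25)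
theorem r26 : RowsOK 1782 adj tB 0 1728 := r25.append (l' := 64) (blk k26)
theorem r27 : RowsOK 1782 adj tB 0 1782 := r26.append (l' := 54) (blk k27)

theorem rows : RowsOK 1782 adj tB 0 1782 := r27

end Cfsg.Agent.SporadicA.SuzAutB
end

-- part: SporadicA/SuzAutC
section
set_option autoImplicit false
set_option Elab.async false

/-!
The table `tC` is an automorphism of the Suzuki graph: kernel check, 64 rows at a time.
-/

namespace Cfsg.Agent.SporadicA.SuzAutC

open Cfsg.Agent.SporadicA.PermTab Cfsg.Agent.SporadicA.SuzData Cfsg.Agent.SporadicA.SuzAdj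

theorem inv : chkInv 1782 tC tC = true := by decide +kernel

theorem k0 : chkAutBlk 1782 adj tC 0 64 = true := by decide +kernel
theorem k1 : chkAutBlk 1782 adj tC 64 64 = true := by decide +kernel
theorem k2 : chkAutBlk 1782 adj tC 128 64 = true := by decide +kernel
theorem k3 : chkAutBlk 1782 adj tC 192 64 = true := by decide +kernel
theorem k4 : chkAutBlk 1782 adj tC 256 64 = true := by decide +kernel
theorem k5 : chkAutBlk 1782 adj tC 320 64 = true := by decide +kernel
theorem k6 : chkAutBlk 1782 adj tC 384 64 = true := by decide +kernel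
theorem k7 : chkAutBlk 1782 adj tC 448 64 = true := by decide +kernel
theorem k8 : chkAutBlk 1782 adj tC 512 64 = true := by decide +kernel
theorem k9 : chkAutBlk 1782 adj tC 576 64 = true := by decide +kernel
theorem k10 : chkAutBlk 1782 adj tC 640 64 = true := by decide +kernel
theorem k11 : chkAutBlk 1782 adj tC 704 64 = true := by decide +kernel
theorem k12 : chkAutBlk 1782 adj tC 768 64 = true := by decide +kernel
theorem k13 : chkAutBlk 1782 adj tC 832 64 = true := by decide +kernel
theorem k14 : chkAutBlk 1782 adj tC 896 64 = true := by decide +kernel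
theorem k15 : chkAutBlk 1782 adj tC 960 64 = true := by decide +kernel
theorem k16 : chkAutBlk 1782 adj tC 1024 64 = true := by decide +kernel
theorem k17 : chkAutBlk 1782 adj tC 1088 64 = true := by decide +kernel
theorem k18 : chkAutBlk 1782 adj tC 1152 64 = true := by decide +kernel
theorem k19 : chkAutBlk 1782 adj tC 1216 64 = true := by decide +kernel
theorem k20 : chkAutBlk 1782 adj tC 1280 64 = true := by decide +kernel
theorem k21 : chkAutBlk 1782 adj tC 1344 64 = true := by decide +kernel
theorem k22 : chkAutBlk 1782 adj tC 1408 64 = true := by decide +kernel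
theorem k23 : chkAutBlk 1782 adj tC 1472 64 = true := by decide +kernel
theorem k24 : chkAutBlk 1782 adj tC 1536 64 = true := by decide +kernel
theorem k25 : chkAutBlk 1782 adj tC 1600 64 = true := by decide +kernel
theorem k26 : chkAutBlk 1782 adj tC 1664 64 = true := by decide +kernel
theorem k27 : chkAutBlk 1782 adj tC 1728 54 = true := by decide +kernel

theorem blk {i0 l : ℕ} (h : chkAutBlk 1782 adj tC i0 l = true) : RowsOK 1782 adj tC i0 l :=
  rowsOK_of_chk (chkInv_lt inv) (chkInv_inj inv) h

theorem r0 : RowsOK 1782 adj tC 0 64 := blk k0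
theorem r1 : RowsOK 1782 adj tC 0 128 := r0.append (l' := 64) (blk k1)
theorem r2 : RowsOK 1782 adj tC 0 192 := r1.append (l' := 64) (blk k2)
theorem r3 : RowsOK 1782 adj tC 0 256 := r2.append (l' := 64) (blk k3)
theorem r4 : RowsOK 1782 adj tC 0 320 := r3.append (l' := 64) (blk k4)
theorem r5 : RowsOK 1782 adj tC 0 384 := r4.append (l' := 64) (blk k5)
theorem r6 : RowsOK 1782 adj tC 0 448 := r5.append (l' := 64) (blk k6)
theorem r7 : RowsOK 1782 adj tC 0 512 := r6.append (l' := 64) (blk k7)
theorem r8 : RowsOK 1782 adj tC 0 576 := r7.append (l' := 64) (blk k8)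
theorem r9 : RowsOK 1782 adj tC 0 640 := r8.append (l' := 64) (blk k9)
theorem r10 : RowsOK 1782 adj tC 0 704 := r9.append (l' := 64) (blk k10)
theorem r11 : RowsOK 1782 adj tC 0 768 := r10.append (l' := 64) (blk k11)
theorem r12 : RowsOK 1782 adj tC 0 832 := r11.append (l' := 64) (blk k12)
theorem r13 : RowsOK 1782 adj tC 0 896 := r12.append (l' := 64) (blk k13)
theorem r14 : RowsOK 1782 adj tC 0 960 := r13.append (l' := 64) (blk k14)
theorem r15 : RowsOK 1782 adj tC 0 1024 := r14.append (l' := 64) (blk k15)
theorem r16 : RowsOK 1782 adj tC 0 1088 := r15.append (l' := 64) (blk k16)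
theorem r17 : RowsOK 1782 adj tC 0 1152 := r16.append (l' := 64) (blk k17)
theorem r18 : RowsOK 1782 adj tC 0 1216 := r17.append (l' := 64) (blk k18)
theorem r19 : RowsOK 1782 adj tC 0 1280 := r18.append (l' := 64) (blk k19)
theorem r20 : RowsOK 1782 adj tC 0 1344 := r19.append (l' := 64) (blk k20)
theorem r21 : RowsOK 1782 adj tC 0 1408 := r20.append (l' := 64) (blk k21)
theorem r22 : RowsOK 1782 adj tC 0 1472 := r21.append (l' := 64) (blk k22)
theorem r23 : RowsOK 1782 adj tC 0 1536 := r22.append (l' := 64) (blk k23)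
theorem r24 : RowsOK 1782 adj tC 0 1600 := r23.append (l' := 64) (blk k24)
theorem r25 : RowsOK 1782 adj tC 0 1664 := r24.append (l' := 64) (blk k25)
theorem r26 : RowsOK 1782 adj tC 0 1728 := r25.append (l' := 64) (blk k26)
theorem r27 : RowsOK 1782 adj tC 0 1782 := r26.append (l' := 54) (blk k27)

theorem rows : RowsOK 1782 adj tC 0 1782 := r27

end Cfsg.Agent.SporadicA.SuzAutC
end

-- part: SporadicA/SuzAutD
section
set_option autoImplicit false
set_option Elab.async false

/-!
The table `tD` is an automorphism of the Suzuki graph: kernel check, 64 rows at a time.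
-/

namespace Cfsg.Agent.SporadicA.SuzAutD

open Cfsg.Agent.SporadicA.PermTab Cfsg.Agent.SporadicA.SuzData Cfsg.Agent.SporadicA.SuzAdj

theorem inv : chkInv 1782 tD tD = true := by decide +kernel

theorem k0 : chkAutBlk 1782 adj tD 0 64 = true := by decide +kernel
theorem k1 : chkAutBlk 1782 adj tD 64 64 = true := by decide +kernel
theorem k2 : chkAutBlk 1782 adj tD 128 64 = true := by decide +kernel
theorem k3 : chkAutBlk 1782 adj tD 192 64 = true := by decide +kernel
theorem k4 : chkAutBlk 1782 adj tD 256 64 = true := by decide +kernel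
theorem k5 : chkAutBlk 1782 adj tD 320 64 = true := by decide +kernel
theorem k6 : chkAutBlk 1782 adj tD 384 64 = true := by decide +kernel
theorem k7 : chkAutBlk 1782 adj tD 448 64 = true := by decide +kernel
theorem k8 : chkAutBlk 1782 adj tD 512 64 = true := by decide +kernel
theorem k9 : chkAutBlk 1782 adj tD 576 64 = true := by decide +kernel
theorem k10 : chkAutBlk 1782 adj tD 640 64 = true := by decide +kernel
theorem k11 : chkAutBlk 1782 adj tD 704 64 = true := by decide +kernel
theorem k12 : chkAutBlk 1782 adj tD 768 64 = true := by decide +kernel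
theorem k13 : chkAutBlk 1782 adj tD 832 64 = true := by decide +kernel
theorem k14 : chkAutBlk 1782 adj tD 896 64 = true := by decide +kernel
theorem k15 : chkAutBlk 1782 adj tD 960 64 = true := by decide +kernel
theorem k16 : chkAutBlk 1782 adj tD 1024 64 = true := by decide +kernel
theorem k17 : chkAutBlk 1782 adj tD 1088 64 = true := by decide +kernel
theorem k18 : chkAutBlk 1782 adj tD 1152 64 = true := by decide +kernel
theorem k19 : chkAutBlk 1782 adj tD 1216 64 = true := by decide +kernel
theorem k20 : chkAutBlk 1782 adj tD 1280 64 = true := by decide +kernel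
theorem k21 : chkAutBlk 1782 adj tD 1344 64 = true := by decide +kernel
theorem k22 : chkAutBlk 1782 adj tD 1408 64 = true := by decide +kernel
theorem k23 : chkAutBlk 1782 adj tD 1472 64 = true := by decide +kernel
theorem k24 : chkAutBlk 1782 adj tD 1536 64 = true := by decide +kernel
theorem k25 : chkAutBlk 1782 adj tD 1600 64 = true := by decide +kernel
theorem k26 : chkAutBlk 1782 adj tD 1664 64 = true := by decide +kernel
theorem k27 : chkAutBlk 1782 adj tD 1728 54 = true := by decide +kernel

theorem blk {i0 l : ℕ} (h : chkAutBlk 1782 adj tD i0 l = true) : RowsOK 1782 adj tD i0 l :=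
  rowsOK_of_chk (chkInv_lt inv) (chkInv_inj inv) h

theorem r0 : RowsOK 1782 adj tD 0 64 := blk k0
theorem r1 : RowsOK 1782 adj tD 0 128 := r0.append (l' := 64) (blk k1)
theorem r2 : RowsOK 1782 adj tD 0 192 := r1.append (l' := 64) (blk k2)
theorem r3 : RowsOK 1782 adj tD 0 256 := r2.append (l' := 64) (blk k3)
theorem r4 : RowsOK 1782 adj tD 0 320 := r3.append (l' := 64) (blk k4)
theorem r5 : RowsOK 1782 adj tD 0 384 := r4.append (l' := 64) (blk k5)
theorem r6 : RowsOK 1782 adj tD 0 448 := r5.append (l' := 64) (blk k6)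
theorem r7 : RowsOK 1782 adj tD 0 512 := r6.append (l' := 64) (blk k7)
theorem r8 : RowsOK 1782 adj tD 0 576 := r7.append (l' := 64) (blk k8)
theorem r9 : RowsOK 1782 adj tD 0 640 := r8.append (l' := 64) (blk k9)
theorem r10 : RowsOK 1782 adj tD 0 704 := r9.append (l' := 64) (blk k10)
theorem r11 : RowsOK 1782 adj tD 0 768 := r10.append (l' := 64) (blk k11)
theorem r12 : RowsOK 1782 adj tD 0 832 := r11.append (l' := 64) (blk k12)
theorem r13 : RowsOK 1782 adj tD 0 896 := r12.append (l' := 64) (blk k13)
theorem r14 : RowsOK 1782 adj tD 0 960 := r13.append (l' := 64) (blk k14)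
theorem r15 : RowsOK 1782 adj tD 0 1024 := r14.append (l' := 64) (blk k15)
theorem r16 : RowsOK 1782 adj tD 0 1088 := r15.append (l' := 64) (blk k16)
theorem r17 : RowsOK 1782 adj tD 0 1152 := r16.append (l' := 64) (blk k17)
theorem r18 : RowsOK 1782 adj tD 0 1216 := r17.append (l' := 64) (blk k18)
theorem r19 : RowsOK 1782 adj tD 0 1280 := r18.append (l' := 64) (blk k19)
theorem r20 : RowsOK 1782 adj tD 0 1344 := r19.append (l' := 64) (blk k20)
theorem r21 : RowsOK 1782 adj tD 0 1408 := r20.append (l' := 64) (blk k21)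
theorem r22 : RowsOK 1782 adj tD 0 1472 := r21.append (l' := 64) (blk k22)
theorem r23 : RowsOK 1782 adj tD 0 1536 := r22.append (l' := 64) (blk k23)
theorem r24 : RowsOK 1782 adj tD 0 1600 := r23.append (l' := 64) (blk k24)
theorem r25 : RowsOK 1782 adj tD 0 1664 := r24.append (l' := 64) (blk k25)
theorem r26 : RowsOK 1782 adj tD 0 1728 := r25.append (l' := 64) (blk k26)
theorem r27 : RowsOK 1782 adj tD 0 1782 := r26.append (l' := 54) (blk k27)

theorem rows : RowsOK 1782 adj tD 0 1782 := r27

end Cfsg.Agent.SporadicA.SuzAutD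
end

-- part: SporadicA/SuzAutE
section
set_option autoImplicit false
set_option Elab.async false

/-!
The table `tE` is an automorphism of the Suzuki graph: kernel check, 64 rows at a time.
-/

namespace Cfsg.Agent.SporadicA.SuzAutE

open Cfsg.Agent.SporadicA.PermTab Cfsg.Agent.SporadicA.SuzData Cfsg.Agent.SporadicA.SuzAdj

theorem inv : chkInv 1782 tE tE = true := by decide +kernel

theorem k0 : chkAutBlk 1782 adj tE 0 64 = true := by decide +kernel
theorem k1 : chkAutBlk 1782 adj tE 64 64 = true := by decide +kernel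
theorem k2 : chkAutBlk 1782 adj tE 128 64 = true := by decide +kernel
theorem k3 : chkAutBlk 1782 adj tE 192 64 = true := by decide +kernel
theorem k4 : chkAutBlk 1782 adj tE 256 64 = true := by decide +kernel
theorem k5 : chkAutBlk 1782 adj tE 320 64 = true := by decide +kernel
theorem k6 : chkAutBlk 1782 adj tE 384 64 = true := by decide +kernel
theorem k7 : chkAutBlk 1782 adj tE 448 64 = true := by decide +kernel
theorem k8 : chkAutBlk 1782 adj tE 512 64 = true := by decide +kernel
theorem k9 : chkAutBlk 1782 adj tE 576 64 = true := by decide +kernel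
theorem k10 : chkAutBlk 1782 adj tE 640 64 = true := by decide +kernel
theorem k11 : chkAutBlk 1782 adj tE 704 64 = true := by decide +kernel
theorem k12 : chkAutBlk 1782 adj tE 768 64 = true := by decide +kernel
theorem k13 : chkAutBlk 1782 adj tE 832 64 = true := by decide +kernel
theorem k14 : chkAutBlk 1782 adj tE 896 64 = true := by decide +kernel
theorem k15 : chkAutBlk 1782 adj tE 960 64 = true := by decide +kernel
theorem k16 : chkAutBlk 1782 adj tE 1024 64 = true := by decide +kernel
theorem k17 : chkAutBlk 1782 adj tE 1088 64 = true := by decide +kernel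
theorem k18 : chkAutBlk 1782 adj tE 1152 64 = true := by decide +kernel
theorem k19 : chkAutBlk 1782 adj tE 1216 64 = true := by decide +kernel
theorem k20 : chkAutBlk 1782 adj tE 1280 64 = true := by decide +kernel
theorem k21 : chkAutBlk 1782 adj tE 1344 64 = true := by decide +kernel
theorem k22 : chkAutBlk 1782 adj tE 1408 64 = true := by decide +kernel
theorem k23 : chkAutBlk 1782 adj tE 1472 64 = true := by decide +kernel
theorem k24 : chkAutBlk 1782 adj tE 1536 64 = true := by decide +kernel
theorem k25 : chkAutBlk 1782 adj tE 1600 64 = true := by decide +kernel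
theorem k26 : chkAutBlk 1782 adj tE 1664 64 = true := by decide +kernel
theorem k27 : chkAutBlk 1782 adj tE 1728 54 = true := by decide +kernel

theorem blk {i0 l : ℕ} (h : chkAutBlk 1782 adj tE i0 l = true) : RowsOK 1782 adj tE i0 l :=
  rowsOK_of_chk (chkInv_lt inv) (chkInv_inj inv) h

theorem r0 : RowsOK 1782 adj tE 0 64 := blk k0
theorem r1 : RowsOK 1782 adj tE 0 128 := r0.append (l' := 64) (blk k1)
theorem r2 : RowsOK 1782 adj tE 0 192 := r1.append (l' := 64) (blk k2)
theorem r3 : RowsOK 1782 adj tE 0 256 := r2.append (l' := 64) (blk k3)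
theorem r4 : RowsOK 1782 adj tE 0 320 := r3.append (l' := 64) (blk k4)
theorem r5 : RowsOK 1782 adj tE 0 384 := r4.append (l' := 64) (blk k5)
theorem r6 : RowsOK 1782 adj tE 0 448 := r5.append (l' := 64) (blk k6)
theorem r7 : RowsOK 1782 adj tE 0 512 := r6.append (l' := 64) (blk k7)
theorem r8 : RowsOK 1782 adj tE 0 576 := r7.append (l' := 64) (blk k8)
theorem r9 : RowsOK 1782 adj tE 0 640 := r8.append (l' := 64) (blk k9)
theorem r10 : RowsOK 1782 adj tE 0 704 := r9.append (l' := 64) (blk k10)
theorem r11 : RowsOK 1782 adj tE 0 768 := r10.append (l' := 64) (blk k11)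
theorem r12 : RowsOK 1782 adj tE 0 832 := r11.append (l' := 64) (blk k12)
theorem r13 : RowsOK 1782 adj tE 0 896 := r12.append (l' := 64) (blk k13)
theorem r14 : RowsOK 1782 adj tE 0 960 := r13.append (l' := 64) (blk k14)
theorem r15 : RowsOK 1782 adj tE 0 1024 := r14.append (l' := 64) (blk k15)
theorem r16 : RowsOK 1782 adj tE 0 1088 := r15.append (l' := 64) (blk k16)
theorem r17 : RowsOK 1782 adj tE 0 1152 := r16.append (l' := 64) (blk k17)
theorem r18 : RowsOK 1782 adj tE 0 1216 := r17.append (l' := 64) (blk k18)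
theorem r19 : RowsOK 1782 adj tE 0 1280 := r18.append (l' := 64) (blk k19)
theorem r20 : RowsOK 1782 adj tE 0 1344 := r19.append (l' := 64) (blk k20)
theorem r21 : RowsOK 1782 adj tE 0 1408 := r20.append (l' := 64) (blk k21)
theorem r22 : RowsOK 1782 adj tE 0 1472 := r21.append (l' := 64) (blk k22)
theorem r23 : RowsOK 1782 adj tE 0 1536 := r22.append (l' := 64) (blk k23)
theorem r24 : RowsOK 1782 adj tE 0 1600 := r23.append (l' := 64) (blk k24)
theorem r25 : RowsOK 1782 adj tE 0 1664 := r24.append (l' := 64) (blk k25)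
theorem r26 : RowsOK 1782 adj tE 0 1728 := r25.append (l' := 64) (blk k26)
theorem r27 : RowsOK 1782 adj tE 0 1782 := r26.append (l' := 54) (blk k27)

theorem rows : RowsOK 1782 adj tE 0 1782 := r27

end Cfsg.Agent.SporadicA.SuzAutE
end

-- part: SporadicA/SuzAutF
section
set_option autoImplicit false
set_option Elab.async false

/-!
The table `tF` is an automorphism of the Suzuki graph: kernel check, 64 rows at a time.
-/

namespace Cfsg.Agent.SporadicA.SuzAutF

open Cfsg.Agent.SporadicA.PermTab Cfsg.Agent.SporadicA.SuzData Cfsg.Agent.SporadicA.SuzAdj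

theorem inv : chkInv 1782 tF tF = true := by decide +kernel

theorem k0 : chkAutBlk 1782 adj tF 0 64 = true := by decide +kernel
theorem k1 : chkAutBlk 1782 adj tF 64 64 = true := by decide +kernel
theorem k2 : chkAutBlk 1782 adj tF 128 64 = true := by decide +kernel
theorem k3 : chkAutBlk 1782 adj tF 192 64 = true := by decide +kernel
theorem k4 : chkAutBlk 1782 adj tF 256 64 = true := by decide +kernel
theorem k5 : chkAutBlk 1782 adj tF 320 64 = true := by decide +kernel
theorem k6 : chkAutBlk 1782 adj tF 384 64 = true := by decide +kernel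
theorem k7 : chkAutBlk 1782 adj tF 448 64 = true := by decide +kernel
theorem k8 : chkAutBlk 1782 adj tF 512 64 = true := by decide +kernel
theorem k9 : chkAutBlk 1782 adj tF 576 64 = true := by decide +kernel
theorem k10 : chkAutBlk 1782 adj tF 640 64 = true := by decide +kernel
theorem k11 : chkAutBlk 1782 adj tF 704 64 = true := by decide +kernel
theorem k12 : chkAutBlk 1782 adj tF 768 64 = true := by decide +kernel
theorem k13 : chkAutBlk 1782 adj tF 832 64 = true := by decide +kernel
theorem k14 : chkAutBlk 1782 adj tF 896 64 = true := by decide +kernel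
theorem k15 : chkAutBlk 1782 adj tF 960 64 = true := by decide +kernel
theorem k16 : chkAutBlk 1782 adj tF 1024 64 = true := by decide +kernel
theorem k17 : chkAutBlk 1782 adj tF 1088 64 = true := by decide +kernel
theorem k18 : chkAutBlk 1782 adj tF 1152 64 = true := by decide +kernel
theorem k19 : chkAutBlk 1782 adj tF 1216 64 = true := by decide +kernel
theorem k20 : chkAutBlk 1782 adj tF 1280 64 = true := by decide +kernel
theorem k21 : chkAutBlk 1782 adj tF 1344 64 = true := by decide +kernel
theorem k22 : chkAutBlk 1782 adj tF 1408 64 = true := by decide +kernel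
theorem k23 : chkAutBlk 1782 adj tF 1472 64 = true := by decide +kernel
theorem k24 : chkAutBlk 1782 adj tF 1536 64 = true := by decide +kernel
theorem k25 : chkAutBlk 1782 adj tF 1600 64 = true := by decide +kernel
theorem k26 : chkAutBlk 1782 adj tF 1664 64 = true := by decide +kernel
theorem k27 : chkAutBlk 1782 adj tF 1728 54 = true := by decide +kernel

theorem blk {i0 l : ℕ} (h : chkAutBlk 1782 adj tF i0 l = true) : RowsOK 1782 adj tF i0 l :=
  rowsOK_of_chk (chkInv_lt inv) (chkInv_inj inv) h

theorem r0 : RowsOK 1782 adj tF 0 64 := blk k0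
theorem r1 : RowsOK 1782 adj tF 0 128 := r0.append (l' := 64) (blk k1)
theorem r2 : RowsOK 1782 adj tF 0 192 := r1.append (l' := 64) (blk k2)
theorem r3 : RowsOK 1782 adj tF 0 256 := r2.append (l' := 64) (blk k3)
theorem r4 : RowsOK 1782 adj tF 0 320 := r3.append (l' := 64) (blk k4)
theorem r5 : RowsOK 1782 adj tF 0 384 := r4.append (l' := 64) (blk k5)
theorem r6 : RowsOK 1782 adj tF 0 448 := r5.append (l' := 64) (blk k6)
theorem r7 : RowsOK 1782 adj tF 0 512 := r6.append (l' := 64) (blk k7)
theorem r8 : RowsOK 1782 adj tF 0 576 := r7.append (l' := 64) (blk k8)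
theorem r9 : RowsOK 1782 adj tF 0 640 := r8.append (l' := 64) (blk k9)
theorem r10 : RowsOK 1782 adj tF 0 704 := r9.append (l' := 64) (blk k10)
theorem r11 : RowsOK 1782 adj tF 0 768 := r10.append (l' := 64) (blk k11)
theorem r12 : RowsOK 1782 adj tF 0 832 := r11.append (l' := 64) (blk k12)
theorem r13 : RowsOK 1782 adj tF 0 896 := r12.append (l' := 64) (blk k13)
theorem r14 : RowsOK 1782 adj tF 0 960 := r13.append (l' := 64) (blk k14)
theorem r15 : RowsOK 1782 adj tF 0 1024 := r14.append (l' := 64) (blk k15)
theorem r16 : RowsOK 1782 adj tF 0 1088 := r15.append (l' := 64) (blk k16)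
theorem r17 : RowsOK 1782 adj tF 0 1152 := r16.append (l' := 64) (blk k17)
theorem r18 : RowsOK 1782 adj tF 0 1216 := r17.append (l' := 64) (blk k18)
theorem r19 : RowsOK 1782 adj tF 0 1280 := r18.append (l' := 64) (blk k19)
theorem r20 : RowsOK 1782 adj tF 0 1344 := r19.append (l' := 64) (blk k20)
theorem r21 : RowsOK 1782 adj tF 0 1408 := r20.append (l' := 64) (blk k21)
theorem r22 : RowsOK 1782 adj tF 0 1472 := r21.append (l' := 64) (blk k22)
theorem r23 : RowsOK 1782 adj tF 0 1536 := r22.append (l' := 64) (blk k23)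
theorem r24 : RowsOK 1782 adj tF 0 1600 := r23.append (l' := 64) (blk k24)
theorem r25 : RowsOK 1782 adj tF 0 1664 := r24.append (l' := 64) (blk k25)
theorem r26 : RowsOK 1782 adj tF 0 1728 := r25.append (l' := 64) (blk k26)
theorem r27 : RowsOK 1782 adj tF 0 1782 := r26.append (l' := 54) (blk k27)

theorem rows : RowsOK 1782 adj tF 0 1782 := r27

end Cfsg.Agent.SporadicA.SuzAutF
end

-- part: SporadicA/SuzAutG
section
set_option autoImplicit false
set_option Elab.async false

/-!
The table `tG` is an automorphism of the Suzuki graph: kernel check, 64 rows at a time.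
-/

namespace Cfsg.Agent.SporadicA.SuzAutG

open Cfsg.Agent.SporadicA.PermTab Cfsg.Agent.SporadicA.SuzData Cfsg.Agent.SporadicA.SuzAdj

theorem inv : chkInv 1782 tG tG = true := by decide +kernel

theorem k0 : chkAutBlk 1782 adj tG 0 64 = true := by decide +kernel
theorem k1 : chkAutBlk 1782 adj tG 64 64 = true := by decide +kernel
theorem k2 : chkAutBlk 1782 adj tG 128 64 = true := by decide +kernel
theorem k3 : chkAutBlk 1782 adj tG 192 64 = true := by decide +kernel
theorem k4 : chkAutBlk 1782 adj tG 256 64 = true := by decide +kernel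
theorem k5 : chkAutBlk 1782 adj tG 320 64 = true := by decide +kernel
theorem k6 : chkAutBlk 1782 adj tG 384 64 = true := by decide +kernel
theorem k7 : chkAutBlk 1782 adj tG 448 64 = true := by decide +kernel
theorem k8 : chkAutBlk 1782 adj tG 512 64 = true := by decide +kernel
theorem k9 : chkAutBlk 1782 adj tG 576 64 = true := by decide +kernel
theorem k10 : chkAutBlk 1782 adj tG 640 64 = true := by decide +kernel
theorem k11 : chkAutBlk 1782 adj tG 704 64 = true := by decide +kernel
theorem k12 : chkAutBlk 1782 adj tG 768 64 = true := by decide +kernel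
theorem k13 : chkAutBlk 1782 adj tG 832 64 = true := by decide +kernel
theorem k14 : chkAutBlk 1782 adj tG 896 64 = true := by decide +kernel
theorem k15 : chkAutBlk 1782 adj tG 960 64 = true := by decide +kernel
theorem k16 : chkAutBlk 1782 adj tG 1024 64 = true := by decide +kernel
theorem k17 : chkAutBlk 1782 adj tG 1088 64 = true := by decide +kernel
theorem k18 : chkAutBlk 1782 adj tG 1152 64 = true := by decide +kernel
theorem k19 : chkAutBlk 1782 adj tG 1216 64 = true := by decide +kernel
theorem k20 : chkAutBlk 1782 adj tG 1280 64 = true := by decide +kernel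
theorem k21 : chkAutBlk 1782 adj tG 1344 64 = true := by decide +kernel
theorem k22 : chkAutBlk 1782 adj tG 1408 64 = true := by decide +kernel
theorem k23 : chkAutBlk 1782 adj tG 1472 64 = true := by decide +kernel
theorem k24 : chkAutBlk 1782 adj tG 1536 64 = true := by decide +kernel
theorem k25 : chkAutBlk 1782 adj tG 1600 64 = true := by decide +kernel
theorem k26 : chkAutBlk 1782 adj tG 1664 64 = true := by decide +kernel
theorem k27 : chkAutBlk 1782 adj tG 1728 54 = true := by decide +kernel

theorem blk {i0 l : ℕ} (h : chkAutBlk 1782 adj tG i0 l = true) : RowsOK 1782 adj tG i0 l :=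
  rowsOK_of_chk (chkInv_lt inv) (chkInv_inj inv) h

theorem r0 : RowsOK 1782 adj tG 0 64 := blk k0
theorem r1 : RowsOK 1782 adj tG 0 128 := r0.append (l' := 64) (blk k1)
theorem r2 : RowsOK 1782 adj tG 0 192 := r1.append (l' := 64) (blk k2)
theorem r3 : RowsOK 1782 adj tG 0 256 := r2.append (l' := 64) (blk k3)
theorem r4 : RowsOK 1782 adj tG 0 320 := r3.append (l' := 64) (blk k4)
theorem r5 : RowsOK 1782 adj tG 0 384 := r4.append (l' := 64) (blk k5)
theorem r6 : RowsOK 1782 adj tG 0 448 := r5.append (l' := 64) (blk k6)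
theorem r7 : RowsOK 1782 adj tG 0 512 := r6.append (l' := 64) (blk k7)
theorem r8 : RowsOK 1782 adj tG 0 576 := r7.append (l' := 64) (blk k8)
theorem r9 : RowsOK 1782 adj tG 0 640 := r8.append (l' := 64) (blk k9)
theorem r10 : RowsOK 1782 adj tG 0 704 := r9.append (l' := 64) (blk k10)
theorem r11 : RowsOK 1782 adj tG 0 768 := r10.append (l' := 64) (blk k11)
theorem r12 : RowsOK 1782 adj tG 0 832 := r11.append (l' := 64) (blk k12)
theorem r13 : RowsOK 1782 adj tG 0 896 := r12.append (l' := 64) (blk k13)
theorem r14 : RowsOK 1782 adj tG 0 960 := r13.append (l' := 64) (blk k14)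
theorem r15 : RowsOK 1782 adj tG 0 1024 := r14.append (l' := 64) (blk k15)
theorem r16 : RowsOK 1782 adj tG 0 1088 := r15.append (l' := 64) (blk k16)
theorem r17 : RowsOK 1782 adj tG 0 1152 := r16.append (l' := 64) (blk k17)
theorem r18 : RowsOK 1782 adj tG 0 1216 := r17.append (l' := 64) (blk k18)
theorem r19 : RowsOK 1782 adj tG 0 1280 := r18.append (l' := 64) (blk k19)
theorem r20 : RowsOK 1782 adj tG 0 1344 := r19.append (l' := 64) (blk k20)
theorem r21 : RowsOK 1782 adj tG 0 1408 := r20.append (l' := 64) (blk k21)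
theorem r22 : RowsOK 1782 adj tG 0 1472 := r21.append (l' := 64) (blk k22)
theorem r23 : RowsOK 1782 adj tG 0 1536 := r22.append (l' := 64) (blk k23)
theorem r24 : RowsOK 1782 adj tG 0 1600 := r23.append (l' := 64) (blk k24)
theorem r25 : RowsOK 1782 adj tG 0 1664 := r24.append (l' := 64) (blk k25)
theorem r26 : RowsOK 1782 adj tG 0 1728 := r25.append (l' := 64) (blk k26)
theorem r27 : RowsOK 1782 adj tG 0 1782 := r26.append (l' := 54) (blk k27)

theorem rows : RowsOK 1782 adj tG 0 1782 := r27

end Cfsg.Agent.SporadicA.SuzAutG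
end

-- part: SporadicA/SuzAutT
section
set_option autoImplicit false
set_option Elab.async false

/-!
The table `tT` is an automorphism of the Suzuki graph: kernel check, 64 rows at a time.
-/

namespace Cfsg.Agent.SporadicA.SuzAutT

open Cfsg.Agent.SporadicA.PermTab Cfsg.Agent.SporadicA.SuzData Cfsg.Agent.SporadicA.SuzAdj

theorem inv : chkInv 1782 tT tT = true := by decide +kernel

theorem k0 : chkAutBlk 1782 adj tT 0 64 = true := by decide +kernel
theorem k1 : chkAutBlk 1782 adj tT 64 64 = true := by decide +kernel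
theorem k2 : chkAutBlk 1782 adj tT 128 64 = true := by decide +kernel
theorem k3 : chkAutBlk 1782 adj tT 192 64 = true := by decide +kernel
theorem k4 : chkAutBlk 1782 adj tT 256 64 = true := by decide +kernel
theorem k5 : chkAutBlk 1782 adj tT 320 64 = true := by decide +kernel
theorem k6 : chkAutBlk 1782 adj tT 384 64 = true := by decide +kernel
theorem k7 : chkAutBlk 1782 adj tT 448 64 = true := by decide +kernel
theorem k8 : chkAutBlk 1782 adj tT 512 64 = true := by decide +kernel
theorem k9 : chkAutBlk 1782 adj tT 576 64 = true := by decide +kernel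
theorem k10 : chkAutBlk 1782 adj tT 640 64 = true := by decide +kernel
theorem k11 : chkAutBlk 1782 adj tT 704 64 = true := by decide +kernel
theorem k12 : chkAutBlk 1782 adj tT 768 64 = true := by decide +kernel
theorem k13 : chkAutBlk 1782 adj tT 832 64 = true := by decide +kernel
theorem k14 : chkAutBlk 1782 adj tT 896 64 = true := by decide +kernel
theorem k15 : chkAutBlk 1782 adj tT 960 64 = true := by decide +kernel
theorem k16 : chkAutBlk 1782 adj tT 1024 64 = true := by decide +kernel
theorem k17 : chkAutBlk 1782 adj tT 1088 64 = true := by decide +kernel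
theorem k18 : chkAutBlk 1782 adj tT 1152 64 = true := by decide +kernel
theorem k19 : chkAutBlk 1782 adj tT 1216 64 = true := by decide +kernel
theorem k20 : chkAutBlk 1782 adj tT 1280 64 = true := by decide +kernel
theorem k21 : chkAutBlk 1782 adj tT 1344 64 = true := by decide +kernel
theorem k22 : chkAutBlk 1782 adj tT 1408 64 = true := by decide +kernel
theorem k23 : chkAutBlk 1782 adj tT 1472 64 = true := by decide +kernel
theorem k24 : chkAutBlk 1782 adj tT 1536 64 = true := by decide +kernel
theorem k25 : chkAutBlk 1782 adj tT 1600 64 = true := by decide +kernel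
theorem k26 : chkAutBlk 1782 adj tT 1664 64 = true := by decide +kernel
theorem k27 : chkAutBlk 1782 adj tT 1728 54 = true := by decide +kernel

theorem blk {i0 l : ℕ} (h : chkAutBlk 1782 adj tT i0 l = true) : RowsOK 1782 adj tT i0 l :=
  rowsOK_of_chk (chkInv_lt inv) (chkInv_inj inv) h

theorem r0 : RowsOK 1782 adj tT 0 64 := blk k0
theorem r1 : RowsOK 1782 adj tT 0 128 := r0.append (l' := 64) (blk k1)
theorem r2 : RowsOK 1782 adj tT 0 192 := r1.append (l' := 64) (blk k2)
theorem r3 : RowsOK 1782 adj tT 0 256 := r2.append (l' := 64) (blk k3)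
theorem r4 : RowsOK 1782 adj tT 0 320 := r3.append (l' := 64) (blk k4)
theorem r5 : RowsOK 1782 adj tT 0 384 := r4.append (l' := 64) (blk k5)
theorem r6 : RowsOK 1782 adj tT 0 448 := r5.append (l' := 64) (blk k6)
theorem r7 : RowsOK 1782 adj tT 0 512 := r6.append (l' := 64) (blk k7)
theorem r8 : RowsOK 1782 adj tT 0 576 := r7.append (l' := 64) (blk k8)
theorem r9 : RowsOK 1782 adj tT 0 640 := r8.append (l' := 64) (blk k9)
theorem r10 : RowsOK 1782 adj tT 0 704 := r9.append (l' := 64) (blk k10)
theorem r11 : RowsOK 1782 adj tT 0 768 := r10.append (l' := 64) (blk k11)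
theorem r12 : RowsOK 1782 adj tT 0 832 := r11.append (l' := 64) (blk k12)
theorem r13 : RowsOK 1782 adj tT 0 896 := r12.append (l' := 64) (blk k13)
theorem r14 : RowsOK 1782 adj tT 0 960 := r13.append (l' := 64) (blk k14)
theorem r15 : RowsOK 1782 adj tT 0 1024 := r14.append (l' := 64) (blk k15)
theorem r16 : RowsOK 1782 adj tT 0 1088 := r15.append (l' := 64) (blk k16)
theorem r17 : RowsOK 1782 adj tT 0 1152 := r16.append (l' := 64) (blk k17)
theorem r18 : RowsOK 1782 adj tT 0 1216 := r17.append (l' := 64) (blk k18)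
theorem r19 : RowsOK 1782 adj tT 0 1280 := r18.append (l' := 64) (blk k19)
theorem r20 : RowsOK 1782 adj tT 0 1344 := r19.append (l' := 64) (blk k20)
theorem r21 : RowsOK 1782 adj tT 0 1408 := r20.append (l' := 64) (blk k21)
theorem r22 : RowsOK 1782 adj tT 0 1472 := r21.append (l' := 64) (blk k22)
theorem r23 : RowsOK 1782 adj tT 0 1536 := r22.append (l' := 64) (blk k23)
theorem r24 : RowsOK 1782 adj tT 0 1600 := r23.append (l' := 64) (blk k24)
theorem r25 : RowsOK 1782 adj tT 0 1664 := r24.append (l' := 64) (blk k25)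
theorem r26 : RowsOK 1782 adj tT 0 1728 := r25.append (l' := 64) (blk k26)
theorem r27 : RowsOK 1782 adj tT 0 1782 := r26.append (l' := 54) (blk k27)

theorem rows : RowsOK 1782 adj tT 0 1782 := r27

end Cfsg.Agent.SporadicA.SuzAutT
end

-- part: SporadicA/Suz1782
section
set_option autoImplicit false
set_option Elab.async false

/-!
The sporadic Suzuki group as a permutation group on 1782 points (generators a, ..., g as in
`Def_Spor_Suz`): order 448345497600 and simplicity.
-/

namespace Cfsg.Agent.SporadicA.Suz1782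

open Equiv Cfsg.Agent.SporadicA.PermTab Cfsg.Agent.SporadicA.PermRank3
open Cfsg.Agent.SporadicA.SuzData Cfsg.Agent.SporadicA.SuzAdj

noncomputable section

/-- the involution a -/
def pA : Perm (Fin 1782) := mkPerm tA tA SuzAutA.inv
/-- the involution b -/
def pB : Perm (Fin 1782) := mkPerm tB tB SuzAutB.inv
/-- the involution c -/
def pC : Perm (Fin 1782) := mkPerm tC tC SuzAutC.inv
/-- the involution d -/
def pD : Perm (Fin 1782) := mkPerm tD tD SuzAutD.inv
/-- the involution e -/
def pE : Perm (Fin 1782) := mkPerm tE tE SuzAutE.inv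
/-- the involution f -/
def pF : Perm (Fin 1782) := mkPerm tF tF SuzAutF.inv
/-- the involution g -/
def pG : Perm (Fin 1782) := mkPerm tG tG SuzAutG.inv
/-- the odd involution -/
def pT : Perm (Fin 1782) := mkPerm tT tT SuzAutT.inv

/-- the seven generators -/
def gens : Set (Perm (Fin 1782)) := {pA, pB, pC, pD, pE, pF, pG}

/-- the sporadic Suzuki group on 1782 points -/
def G : Subgroup (Perm (Fin 1782)) := Subgroup.closure gens

theorem mA : pA ∈ G := Subgroup.subset_closure (Or.inl rfl)
theorem mB : pB ∈ G := Subgroup.subset_closure (Or.inr (Or.inl rfl))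
theorem mC : pC ∈ G := Subgroup.subset_closure (Or.inr (Or.inr (Or.inl rfl)))
theorem mD : pD ∈ G := Subgroup.subset_closure (Or.inr (Or.inr (Or.inr (Or.inl rfl))))
theorem mE : pE ∈ G := Subgroup.subset_closure (Or.inr (Or.inr (Or.inr (Or.inr (Or.inl rfl)))))
theorem mF : pF ∈ G :=
  Subgroup.subset_closure (Or.inr (Or.inr (Or.inr (Or.inr (Or.inr (Or.inl rfl))))))
theorem mG : pG ∈ G :=
  Subgroup.subset_closure (Or.inr (Or.inr (Or.inr (Or.inr (Or.inr (Or.inr rfl))))))

theorem inA : InG G tA := ⟨pA, mA, fun _ => rfl⟩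
theorem inB : InG G tB := ⟨pB, mB, fun _ => rfl⟩
theorem inC : InG G tC := ⟨pC, mC, fun _ => rfl⟩
theorem inD : InG G tD := ⟨pD, mD, fun _ => rfl⟩
theorem inE : InG G tE := ⟨pE, mE, fun _ => rfl⟩
theorem inF : InG G tF := ⟨pF, mF, fun _ => rfl⟩
theorem inGg : InG G tG := ⟨pG, mG, fun _ => rfl⟩

/-- all generator tables -/
def allT : List ℕ := [tA, tB, tC, tD, tE, tF, tG]

theorem inAllT : ∀ P ∈ allT, InG G P := by
  intro P h
  simp only [allT, List.mem_cons, List.not_mem_nil, or_false] at h
  rcases h with rfl | rfl | rfl | rfl | rfl | rfl | rfl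
  exacts [inA, inB, inC, inD, inE, inF, inGg]

/-- all letters of the word are generators -/
def sub (L : List ℕ) : Bool := List.rec true (fun P _ ih =>
  band (notMemB P allT == false) ih) L

theorem inAll' {L : List ℕ} (h : sub L = true) : ∀ P ∈ L, InG G P := by
  induction L with
  | nil => exact fun P hP => absurd hP List.not_mem_nil
  | cons Q L ih =>
    have : sub (Q :: L) = band (notMemB Q allT == false) (sub L) := rfl
    rw [this, band_eq_true] at h
    intro P hP
    rcases List.mem_cons.1 hP with h1 | h1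
    · rw [h1]
      by_contra h2
      have h4 : Q ∉ allT := fun h5 => h2 (inAllT Q h5)
      have h3 := (notMemB_iff _ _).2 h4
      rw [h3] at h
      exact absurd h.1 (by decide)
    · exact ih h.2 P h1

/-! ### strong generators -/

theorem inu0 : InG G u0 := InG.word (inAll' (L := u0w) (by decide +kernel)) (by decide +kernel)
theorem inu1 : InG G u1 := InG.word (inAll' (L := u1w) (by decide +kernel)) (by decide +kernel)
theorem inv0 : InG G v0 := InG.word (inAll' (L := v0w) (by decide +kernel)) (by decide +kernel)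
theorem inv1 : InG G v1 := InG.word (inAll' (L := v1w) (by decide +kernel)) (by decide +kernel)
theorem inw0 : InG G w0 := InG.word (inAll' (L := w0w) (by decide +kernel)) (by decide +kernel)

/-- stabiliser of the first point -/
abbrev G1 : Subgroup (Perm (Fin 1782)) := ps G x0
/-- stabiliser of the first two points -/
abbrev G2 : Subgroup (Perm (Fin 1782)) := ps G1 x1
/-- stabiliser of the first three points -/
abbrev G3 : Subgroup (Perm (Fin 1782)) := ps G2 x2
/-- stabiliser of the first four points -/
abbrev G4 : Subgroup (Perm (Fin 1782)) := ps G3 x3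
/-- stabiliser of the first five points -/
abbrev G5 : Subgroup (Perm (Fin 1782)) := ps G4 x4

theorem oneA : InG G1 tA := inA.ps (by decide +kernel)
theorem oneB : InG G1 tB := inB.ps (by decide +kernel)
theorem oneC : InG G1 tC := inC.ps (by decide +kernel)
theorem oneD : InG G1 tD := inD.ps (by decide +kernel)
theorem oneE : InG G1 tE := inE.ps (by decide +kernel)
theorem oneF : InG G1 tF := inF.ps (by decide +kernel)
theorem twoA : InG G2 tA := oneA.ps (by decide +kernel)
theorem twoB : InG G2 tB := oneB.ps (by decide +kernel)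
theorem twoC : InG G2 tC := oneC.ps (by decide +kernel)
theorem twoD : InG G2 tD := oneD.ps (by decide +kernel)
theorem twoE : InG G2 tE := oneE.ps (by decide +kernel)
theorem threeU0 : InG G3 u0 :=
  ((inu0.ps (by decide +kernel)).ps (by decide +kernel)).ps (by decide +kernel)
theorem threeU1 : InG G3 u1 :=
  ((inu1.ps (by decide +kernel)).ps (by decide +kernel)).ps (by decide +kernel)
theorem fourV0 : InG G4 v0 :=
  (((inv0.ps (by decide +kernel)).ps (by decide +kernel)).ps (by decide +kernel)).ps
    (by decide +kernel)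
theorem fourV1 : InG G4 v1 :=
  (((inv1.ps (by decide +kernel)).ps (by decide +kernel)).ps (by decide +kernel)).ps
    (by decide +kernel)
theorem fiveW0 : InG G5 w0 :=
  ((((inw0.ps (by decide +kernel)).ps (by decide +kernel)).ps (by decide +kernel)).ps
    (by decide +kernel)).ps (by decide +kernel)

/-- the tables a, ..., f -/
def sixT : List ℕ := [tA, tB, tC, tD, tE, tF]
/-- the tables a, ..., e -/
def fiveT : List ℕ := [tA, tB, tC, tD, tE]

theorem inSix : ∀ P ∈ sixT, InG G1 P := by
  intro P h
  simp only [sixT, List.mem_cons, List.not_mem_nil, or_false] at h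
  rcases h with rfl | rfl | rfl | rfl | rfl | rfl
  exacts [oneA, oneB, oneC, oneD, oneE, oneF]

theorem inFive : ∀ P ∈ fiveT, InG G2 P := by
  intro P h
  simp only [fiveT, List.mem_cons, List.not_mem_nil, or_false] at h
  rcases h with rfl | rfl | rfl | rfl | rfl
  exacts [twoA, twoB, twoC, twoD, twoE]

theorem or0 : chkOrb 1782 x0 tA allT c0 = true := by decide +kernel
theorem or1 : chkOrb 1782 x1 tA sixT c1 = true := by decide +kernel
theorem or1b : chkOrb 1782 xf tA sixT c1b = true := by decide +kernel
theorem or2 : chkOrb 1782 x2 tA fiveT c2 = true := by decide +kernel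
theorem or3 : chkOrb 1782 x3 u0 [u0, u1] c3 = true := by decide +kernel
theorem or4 : chkOrb 1782 x4 v0 [v0, v1] c4 = true := by decide +kernel
theorem or5 : chkOrb 1782 x5 w0 [w0] c5 = true := by decide +kernel
theorem cn0 : cntOrb 1782 c0 1782 = true := by decide +kernel
theorem cn1 : cntOrb 1782 c1 416 = true := by decide +kernel
theorem cn1b : cntOrb 1782 c1b 1365 = true := by decide +kernel
theorem cn2 : cntOrb 1782 c2 100 = true := by decide +kernel
theorem cn3 : cntOrb 1782 c3 36 = true := by decide +kernel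
theorem cn4 : cntOrb 1782 c4 42 = true := by decide +kernel
theorem cn5 : cntOrb 1782 c5 4 = true := by decide +kernel

theorem mem2 {P Q : ℕ} {H : Subgroup (Perm (Fin 1782))} (hP : InG H P) (hQ : InG H Q) :
    ∀ R ∈ [P, Q], InG H R := by
  intro R hR
  simp only [List.mem_cons, List.not_mem_nil, or_false] at hR
  rcases hR with rfl | rfl
  exacts [hP, hQ]

theorem mem1 {P : ℕ} {H : Subgroup (Perm (Fin 1782))} (hP : InG H P) :
    ∀ R ∈ [P], InG H R := by
  intro R hR
  rw [List.mem_singleton] at hR
  rw [hR]; exact hP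

theorem card_ge2 : 604800 ≤ Nat.card G2 := by
  have h5 : 4 * 1 ≤ Nat.card G5 :=
    card_ge_of_chk fiveW0 (mem1 fiveW0) or5 cn5 Nat.card_pos
  have h4 : 42 * (4 * 1) ≤ Nat.card G4 :=
    card_ge_of_chk fourV0 (mem2 fourV0 fourV1) or4 cn4 h5
  have h3 : 36 * (42 * (4 * 1)) ≤ Nat.card G3 :=
    card_ge_of_chk threeU0 (mem2 threeU0 threeU1) or3 cn3 h4
  have h2 : 100 * (36 * (42 * (4 * 1))) ≤ Nat.card G2 :=
    card_ge_of_chk twoA inFive or2 cn2 h3
  exact h2

theorem card_ge1 : 251596800 ≤ Nat.card G1 := by
  have h1 : 416 * 604800 ≤ Nat.card G1 := card_ge_of_chk oneA inSix or1 cn1 card_ge2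
  exact h1

theorem card_ge : 448345497600 ≤ Nat.card G := by
  have h0 : 1782 * 251596800 ≤ Nat.card G := card_ge_of_chk inA inAllT or0 cn0 card_ge1
  exact h0

/-! ### elements of order eleven -/

theorem uvA : ∃ u ∈ G, ∃ v ∈ G, u ^ 11 = 1 ∧ v ^ 11 = 1 ∧ pA = u * v⁻¹ :=
  exists_uv mA (fun _ => rfl) (inAll' (L := fA) (by decide +kernel)) (by decide +kernel)
    (by decide +kernel)
theorem uvB : ∃ u ∈ G, ∃ v ∈ G, u ^ 11 = 1 ∧ v ^ 11 = 1 ∧ pB = u * v⁻¹ :=
  exists_uv mB (fun _ => rfl) (inAll' (L := fB) (by decide +kernel)) (by decide +kernel)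
    (by decide +kernel)
theorem uvC : ∃ u ∈ G, ∃ v ∈ G, u ^ 11 = 1 ∧ v ^ 11 = 1 ∧ pC = u * v⁻¹ :=
  exists_uv mC (fun _ => rfl) (inAll' (L := fC) (by decide +kernel)) (by decide +kernel)
    (by decide +kernel)
theorem uvD : ∃ u ∈ G, ∃ v ∈ G, u ^ 11 = 1 ∧ v ^ 11 = 1 ∧ pD = u * v⁻¹ :=
  exists_uv mD (fun _ => rfl) (inAll' (L := fD) (by decide +kernel)) (by decide +kernel)
    (by decide +kernel)
theorem uvE : ∃ u ∈ G, ∃ v ∈ G, u ^ 11 = 1 ∧ v ^ 11 = 1 ∧ pE = u * v⁻¹ :=
  exists_uv mE (fun _ => rfl) (inAll' (L := fE) (by decide +kernel)) (by decide +kernel)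
    (by decide +kernel)
theorem uvF : ∃ u ∈ G, ∃ v ∈ G, u ^ 11 = 1 ∧ v ^ 11 = 1 ∧ pF = u * v⁻¹ :=
  exists_uv mF (fun _ => rfl) (inAll' (L := fF) (by decide +kernel)) (by decide +kernel)
    (by decide +kernel)
theorem uvG : ∃ u ∈ G, ∃ v ∈ G, u ^ 11 = 1 ∧ v ^ 11 = 1 ∧ pG = u * v⁻¹ :=
  exists_uv mG (fun _ => rfl) (inAll' (L := fG) (by decide +kernel)) (by decide +kernel)
    (by decide +kernel)

theorem uvAll : ∀ s ∈ gens, ∃ u ∈ G, ∃ v ∈ G, u ^ 11 = 1 ∧ v ^ 11 = 1 ∧ s = u * v⁻¹ := by
  intro s hs
  rcases hs with rfl | rfl | rfl | rfl | rfl | rfl | rfl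
  exacts [uvA, uvB, uvC, uvD, uvE, uvF, uvG]

theorem sign_gens : ∀ s ∈ gens, Perm.sign s = 1 := by
  intro s hs
  obtain ⟨u, -, v, -, hu, hv, rfl⟩ := uvAll s hs
  rw [Perm.sign_mul, Perm.sign_inv, sign_eq_one_of_odd_pow (by decide) hu,
    sign_eq_one_of_odd_pow (by decide) hv, one_mul]

theorem sign_G : ∀ g ∈ G, Perm.sign g = 1 := by
  have h : G ≤ (Perm.sign : Perm (Fin 1782) →* ℤˣ).ker := by
    rw [G, Subgroup.closure_le]
    exact fun s hs => sign_gens s hs
  exact fun g hg => h hg

/-! ### upper bound -/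

theorem aut_le : G ≤ autG 1782 adj := by
  rw [G, Subgroup.closure_le]
  intro s hs
  rcases hs with rfl | rfl | rfl | rfl | rfl | rfl | rfl
  · exact mkPerm_mem_autG SuzAutA.inv SuzAutA.rows
  · exact mkPerm_mem_autG SuzAutB.inv SuzAutB.rows
  · exact mkPerm_mem_autG SuzAutC.inv SuzAutC.rows
  · exact mkPerm_mem_autG SuzAutD.inv SuzAutD.rows
  · exact mkPerm_mem_autG SuzAutE.inv SuzAutE.rows
  · exact mkPerm_mem_autG SuzAutF.inv SuzAutF.rows
  · exact mkPerm_mem_autG SuzAutG.inv SuzAutG.rows

theorem pT_mem : pT ∈ autG 1782 adj := mkPerm_mem_autG SuzAutT.inv SuzAutT.rows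

/-- the number of moved points of the odd involution -/
theorem cntT : cntB (fun v => nbeq (lk tT v) v) 1782 1682 = true := by decide +kernel

theorem sign_T : Perm.sign pT = -1 := by
  have h1 : pT * pT = 1 := by
    ext i
    exact (chkInv_spec SuzAutT.inv i).2.2.1
  have h2 : pT.support.card = 1682 := by
    rw [← card_fin_of_cntB _ 1782 1682 cntT]
    refine congrArg Finset.card ?_
    ext v
    rw [Perm.mem_support, Finset.mem_filter, nbeq_iff]
    exact ⟨fun h => ⟨Finset.mem_univ _, fun h' => h (Fin.ext h')⟩,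
      fun h h' => h.2 (Fin.ext_iff.1 h')⟩
  rw [sign_of_involution h1, h2]
  exact Odd.neg_one_pow (by decide)

theorem card_G : Nat.card G = 448345497600 := by
  have h1 := two_mul_card_le aut_le sign_G pT_mem sign_T
  have h2 := SuzUpper.card_aut_le
  have h3 := card_ge
  omega

/-! ### simplicity -/

theorem c_cover : allB (fun v => cond (Nat.beq v x0) true (cond (Nat.beq (lk c1 v) 2047)
    (nbeq (lk c1b v) 2047) true)) 1782 = true := by decide +kernel

theorem c_trans : allB (fun v => nbeq (lk c0 v) 2047) 1782 = true := by decide +kernel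

theorem trans (v : Fin 1782) : ∃ g ∈ G, g x0 = v :=
  orb_of_chk inA inAllT or0 v ((nbeq_iff _ _).1 ((allB_iff _ _).1 c_trans v v.2))

theorem simple : IsSimpleGroup G := by
  refine isSimpleGroup_rank3 (p := 11) G x0 trans {v : Fin 1782 | lk c1 v ≠ 2047}
    {v : Fin 1782 | lk c1b v ≠ 2047} ?_ ?_ ?_ ?_ ?_ ?_ ?_ (by norm_num) ?_ gens rfl uvAll ?_
  · intro h
    exact h (by decide +kernel)
  · intro h
    exact h (by decide +kernel)
  · intro v
    have h := (allB_iff _ _).1 c_cover v v.2
    cases h1 : Nat.beq (v : ℕ) (x0 : Fin 1782) with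
    | true => exact Or.inl (Fin.ext (Nat.eq_of_beq_eq_true h1))
    | false =>
      rw [h1, cond_false] at h
      cases h2 : Nat.beq (lk c1 v) 2047 with
      | true =>
        rw [h2, cond_true] at h
        exact Or.inr (Or.inr ((nbeq_iff _ _).1 h))
      | false => exact Or.inr (Or.inl (Nat.ne_of_beq_eq_false h2))
  · intro y hy z hz
    exact orb_pair oneA inSix or1 y z hy hz
  · intro y hy z hz
    exact orb_pair oneA inSix or1b y z hy hz
  · rw [ncard_of_cntOrb cn1, Nat.card_eq_fintype_card, Fintype.card_fin]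
    decide
  · rw [ncard_of_cntOrb cn1b, Nat.card_eq_fintype_card, Fintype.card_fin]
    decide
  · intro k hk
    rw [card_G, Nat.card_eq_fintype_card, Fintype.card_fin] at hk
    have : k = 251596800 := by omega
    rw [this]
    decide +kernel
  · rw [card_G]
    decide +kernel

end

end Cfsg.Agent.SporadicA.Suz1782
end
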